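import Mathlib

set_option autoImplicit false

namespace Cfsg.Agent.Lib.Helper2

variable {G : Type*} [Group G] [Finite G]

/-- A normal subgroup whose index is a positive power of two lies in a subgroup of index two. -/
theorem exists_index_two_of_normal (K : Subgroup G) [K.Normal] (k : ℕ)
    (hk : K.index = 2 ^ (k + 1)) : ∃ H : Subgroup G, K ≤ H ∧ H.index = 2 := by
  haveI : Fact (Nat.Prime 2) := ⟨Nat.prime_two⟩
  have hQ : Nat.card (G ⧸ K) = 2 ^ (k + 1) := hk
  obtain ⟨H₀, hH₀⟩ := Sylow.exists_subgroup_card_pow_prime (G := G ⧸ K) 2 (n := k)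
    (by rw [hQ]; exact pow_dvd_pow 2 (Nat.le_succ k))
  have hidx : H₀.index = 2 := by
    have := H₀.card_mul_index
    rw [hH₀, hQ, pow_succ] at this
    exact Nat.eq_of_mul_eq_mul_left (by positivity) this
  refine ⟨H₀.comap (QuotientGroup.mk' K), ?_, ?_⟩
  · intro x hx
    rw [Subgroup.mem_comap]
    have : QuotientGroup.mk' K x = 1 := (QuotientGroup.eq_one_iff x).mpr hx
    rw [this]; exact H₀.one_mem
  · rw [Subgroup.index_comap_of_surjective _ (QuotientGroup.mk'_surjective K), hidx]

/-- A finite group of even order with a cyclic Sylow 2-subgroup has a subgroup of index 2. -/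
theorem exists_index_two_of_cyclic_sylow (heven : Even (Nat.card G)) (T : Sylow 2 G)
    (hT : IsCyclic (T : Subgroup G)) : ∃ H : Subgroup G, H.index = 2 := by
  haveI : Fact (Nat.Prime 2) := ⟨Nat.prime_two⟩
  have hp : (Nat.card G).minFac = 2 := (Nat.minFac_eq_two_iff _).mpr heven.two_dvd
  have hc := IsCyclic.isComplement' hp hT
  obtain ⟨k, hk⟩ := T.2.exists_card_eq
  have h2 : 2 ∣ Nat.card T := T.dvd_card_of_dvd_card heven.two_dvd
  have hk0 : k ≠ 0 := by
    rintro rfl
    rw [hk, pow_zero] at h2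
    omega
  obtain ⟨j, rfl⟩ := Nat.exists_eq_succ_of_ne_zero hk0
  obtain ⟨H, -, hH⟩ := exists_index_two_of_normal _ j (hc.symm.index_eq_card.trans hk)
  exact ⟨H, hH⟩

end Cfsg.Agent.Lib.Helper2
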