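import Mathlib
import Cfsg.Agent.Lib.Helper2.Dihedral
import Cfsg.Agent.S0237
import Cfsg.Agent.S0238

set_option autoImplicit false

namespace Cfsg.Agent.Lib.Helper2

variable {G : Type*} [Group G]

/-- The extended centralizer `C*(x)`: elements centralizing or inverting `x`. -/
def extCentralizer (x : G) : Subgroup G where
  carrier := {g | g * x * g⁻¹ = x ∨ g * x * g⁻¹ = x⁻¹}
  one_mem' := Or.inl (by simp)
  mul_mem' := by
    intro a b ha hb
    have key : a * b * x * (a * b)⁻¹ = a * (b * x * b⁻¹) * a⁻¹ := by group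
    have hinv : a * x⁻¹ * a⁻¹ = (a * x * a⁻¹)⁻¹ := by group
    rcases hb with hb | hb <;> rcases ha with ha | ha
    · left; rw [key, hb, ha]
    · right; rw [key, hb, ha]
    · right; rw [key, hb, hinv, ha]
    · left; rw [key, hb, hinv, ha, inv_inv]
  inv_mem' := by
    intro a ha
    rcases ha with ha | ha
    · left
      calc a⁻¹ * x * a⁻¹⁻¹ = a⁻¹ * (a * x * a⁻¹) * a := by rw [ha, inv_inv]
        _ = x := by group
    · right
      have h1 : x = (a * x * a⁻¹)⁻¹ := by rw [ha, inv_inv]
      calc a⁻¹ * x * a⁻¹⁻¹ = a⁻¹ * (a * x * a⁻¹)⁻¹ * a := by rw [← h1, inv_inv]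
        _ = x⁻¹ := by group

theorem mem_extCentralizer {x g : G} :
    g ∈ extCentralizer x ↔ g * x * g⁻¹ = x ∨ g * x * g⁻¹ = x⁻¹ := Iff.rfl

theorem card_extCentralizer [Finite G] (x : G) (hreal : IsConj x x⁻¹) (hne : x ≠ x⁻¹) :
    Nat.card (extCentralizer x) = 2 * Nat.card (Subgroup.centralizer ({x} : Set G)) := by
  classical
  have := Fintype.ofFinite G
  have h1 : Nat.card (extCentralizer x) =
      (Finset.univ.filter (fun g : G => g * x * g⁻¹ = x ∨ g * x * g⁻¹ = x⁻¹)).card := by
    apply Nat.subtype_card
    intro g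
    simp [mem_extCentralizer]
  have h2 : Nat.card (Subgroup.centralizer ({x} : Set G)) =
      (Finset.univ.filter (fun g : G => g * x * g⁻¹ = x)).card := by
    apply Nat.subtype_card
    intro g
    simp only [Finset.mem_filter, Finset.mem_univ, true_and]
    rw [Subgroup.mem_centralizer_singleton_iff, mul_inv_eq_iff_eq_mul]
  have h3 : Nat.card (Subgroup.centralizer ({x} : Set G)) =
      (Finset.univ.filter (fun g : G => g * x * g⁻¹ = x⁻¹)).card := by
    rw [← Cfsg.Agent.S0237.result x hreal]
    apply Nat.subtype_card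
    intro g
    simp
  rw [h1, Finset.filter_or, Finset.card_union_of_disjoint, ← h2, ← h3, two_mul]
  rw [Finset.disjoint_filter]
  intro g _ h4 h5
  exact hne (h4.symm.trans h5)

/-- number of ordered pairs of involutions with product `x`. -/
noncomputable def invPairs (x : G) : ℕ :=
  Nat.card {p : G × G // orderOf p.1 = 2 ∧ orderOf p.2 = 2 ∧ p.1 * p.2 = x}

theorem invPairs_one : invPairs (1 : G) = Nat.card {t : G // orderOf t = 2} := by
  unfold invPairs
  apply Nat.card_congr
  refine ⟨fun p => ⟨p.1.1, p.2.1⟩, fun t => ⟨(t.1, t.1), t.2, t.2, sq_eq_one_of_orderOf_two t.2⟩,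
    ?_, ?_⟩
  · rintro ⟨⟨u, v⟩, hu, hv, huv⟩
    simp only at hu hv huv
    have : v = u := by
      rw [← inv_eq_self_of_orderOf_two hu]
      exact eq_inv_of_mul_eq_one_right huv
    subst this
    rfl
  · intro t
    rfl

theorem sum_invPairs [Fintype G] :
    ∑ x : G, invPairs x = Nat.card {t : G // orderOf t = 2} ^ 2 := by
  classical
  set I := Finset.univ.filter (fun t : G => orderOf t = 2) with hI
  have hm : Nat.card {t : G // orderOf t = 2} = I.card := by
    apply Nat.subtype_card
    intro g
    simp [hI]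
  have hc : ∀ x : G, invPairs x = ((I ×ˢ I).filter (fun p => p.1 * p.2 = x)).card := by
    intro x
    apply Nat.subtype_card
    rintro ⟨u, v⟩
    simp [hI, and_assoc]
  rw [hm, pow_two, ← Finset.card_product,
    Finset.card_eq_sum_card_fiberwise (f := fun p : G × G => p.1 * p.2) (t := Finset.univ)
      (fun _ _ => Finset.mem_univ _)]
  exact Finset.sum_congr rfl (fun x _ => hc x)

/-- The Brauer–Fowler counting inequality. -/
theorem brauerFowler_ineq [Finite G] (hZ : Odd (Nat.card (Subgroup.center G))) (r : ℕ)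
    (hr : ∀ K : Subgroup G, K ≠ ⊤ → r ≤ K.index) (h2 : ∀ K : Subgroup G, K.index ≠ 2) :
    2 * r * Nat.card {t : G // orderOf t = 2} ^ 2 + 2 * r * Nat.card {t : G // orderOf t = 2}
      + Nat.card G ≤ Nat.card G ^ 2 + Nat.card G * Nat.card {t : G // orderOf t = 2} := by
  classical
  have := Fintype.ofFinite G
  set m := Nat.card {t : G // orderOf t = 2} with hm
  set g := Nat.card G with hg
  have hbound : ∀ K : Subgroup G, K ≠ ⊤ → r * Nat.card K ≤ g := by
    intro K hK
    rw [hg, ← K.index_mul_card]
    exact Nat.mul_le_mul_right _ (hr K hK)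
  have hpt : ∀ x : G, 2 * r * invPairs x + (if orderOf x = 2 then 4 * r else 0)
      + (if x = 1 then g else 0) ≤
      g + (if x = 1 then 2 * r * m else 0) + (if orderOf x = 2 then g else 0) := by
    intro x
    obtain ⟨hb1, hb2, hb3⟩ := Cfsg.Agent.S0238.result x
    change invPairs x ≤ _ at hb1
    change _ → invPairs x = 0 at hb2
    change _ → invPairs x + 2 ≤ _ at hb3
    by_cases hx1 : x = 1
    · subst hx1
      have : orderOf (1 : G) ≠ 2 := by rw [orderOf_one]; omega
      rw [if_neg this, if_neg this, if_pos rfl, if_pos rfl, invPairs_one, ← hm]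
      omega
    · rw [if_neg hx1, if_neg hx1]
      by_cases hx2 : orderOf x = 2
      · rw [if_pos hx2, if_pos hx2]
        have hne : Subgroup.centralizer ({x} : Set G) ≠ ⊤ := by
          intro h
          have hxc : x ∈ Subgroup.center G := by
            rw [Subgroup.centralizer_eq_top_iff_subset] at h
            exact h rfl
          have h3 : orderOf (⟨x, hxc⟩ : Subgroup.center G) = 2 := by
            rw [Subgroup.orderOf_mk, hx2]
          have h4 : 2 ∣ Nat.card (Subgroup.center G) := h3 ▸ orderOf_dvd_natCard _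
          exact (Nat.not_even_iff_odd.mpr hZ) (even_iff_two_dvd.mpr h4)
        have h5 := hbound _ hne
        have h6 := hb3 hx2
        have h7 : r * (invPairs x + 2) ≤ g := le_trans (Nat.mul_le_mul_left r h6) h5
        nlinarith
      · rw [if_neg hx2, if_neg hx2]
        by_cases hreal : IsConj x x⁻¹
        · have hne : x ≠ x⁻¹ := by
            intro h
            apply hx2
            rw [orderOf_eq_two_iff]
            refine ⟨?_, hx1⟩
            nth_rewrite 1 [h]
            exact inv_mul_cancel x
          have hcard := card_extCentralizer x hreal hne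
          have hne' : extCentralizer x ≠ ⊤ := by
            intro h
            apply h2 (Subgroup.centralizer ({x} : Set G))
            have h3 : Nat.card (extCentralizer x) = g := by
              rw [h, Subgroup.card_top]
            have h4 := (Subgroup.centralizer ({x} : Set G)).index_mul_card
            rw [← hg, ← h3, hcard] at h4
            exact Nat.eq_of_mul_eq_mul_right Nat.card_pos h4
          have h5 := hbound _ hne'
          rw [hcard] at h5
          have h7 : r * (2 * invPairs x) ≤ g :=
            le_trans (Nat.mul_le_mul_left r (Nat.mul_le_mul_left 2 hb1)) h5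
          nlinarith
        · rw [hb2 hreal]
          omega
  have hsum := Finset.sum_le_sum (fun x (_ : x ∈ (Finset.univ : Finset G)) => hpt x)
  simp only [Finset.sum_add_distrib, ← Finset.mul_sum, sum_invPairs, Finset.sum_ite_eq',
    Finset.mem_univ, if_true, Finset.sum_const, Finset.card_univ, smul_eq_mul] at hsum
  have hI : ∀ A : ℕ, ∑ x : G, (if orderOf x = 2 then A else 0) = m * A := by
    intro A
    rw [← Finset.sum_filter, Finset.sum_const, smul_eq_mul]
    congr 1
    symm
    apply Nat.subtype_card
    intro g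
    simp
  rw [hI, hI, ← Nat.card_eq_fintype_card, ← hg, ← hm] at hsum
  nlinarith

theorem exists_min_index [Finite G] [Nontrivial G] :
    ∃ H : Subgroup G, H ≠ ⊤ ∧ ∀ K : Subgroup G, K ≠ ⊤ → H.index ≤ K.index := by
  classical
  have hex : ∃ k : ℕ, ∃ H : Subgroup G, H ≠ ⊤ ∧ H.index = k := ⟨_, ⊥, bot_ne_top, rfl⟩
  obtain ⟨H, hH, hHr⟩ := Nat.find_spec hex
  exact ⟨H, hH, fun K hK => hHr ▸ Nat.find_min' hex ⟨K, hK, rfl⟩⟩

theorem nontrivial_of_even_card [Finite G] (heven : Even (Nat.card G)) : Nontrivial G := by
  rw [← Finite.one_lt_card_iff_nontrivial]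
  have : 0 < Nat.card G := Nat.card_pos
  obtain ⟨k, hk⟩ := heven
  omega

/-- Brauer–Fowler index bound. -/
theorem brauerFowler_index [Finite G] (heven : Even (Nat.card G))
    (hZ : Odd (Nat.card (Subgroup.center G))) :
    ∃ H : Subgroup G, H ≠ ⊤ ∧ (H.index = 2 ∨
      2 * H.index * (Nat.card {t : G // orderOf t = 2}) ^ 2 + 2 * H.index *
        (Nat.card {t : G // orderOf t = 2}) + Nat.card G
        ≤ Nat.card G ^ 2 + Nat.card G * Nat.card {t : G // orderOf t = 2}) := by
  have := nontrivial_of_even_card heven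
  by_cases h2 : ∃ K : Subgroup G, K.index = 2
  · obtain ⟨K, hK⟩ := h2
    refine ⟨K, ?_, Or.inl hK⟩
    rintro rfl
    rw [Subgroup.index_top] at hK
    omega
  · obtain ⟨H, hH, hmin⟩ := exists_min_index (G := G)
    exact ⟨H, hH, Or.inr (brauerFowler_ineq hZ H.index hmin (fun K hK => h2 ⟨K, hK⟩))⟩

/-- The class of an involution consists of involutions, so `|G| ≤ m * |C(t)|`. -/
theorem card_le_involutions_mul_centralizer [Finite G] (t : G) (ht : orderOf t = 2) :
    Nat.card G ≤ Nat.card {t : G // orderOf t = 2} *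
      Nat.card (Subgroup.centralizer ({t} : Set G)) := by
  rw [← (Subgroup.centralizer ({t} : Set G)).index_mul_card]
  apply Nat.mul_le_mul_right
  have h1 : (Subgroup.centralizer ({t} : Set G)).index = Nat.card (G ⧸ Subgroup.centralizer ({t} : Set G)) := rfl
  rw [h1]
  have hwd : ∀ a b : G, QuotientGroup.leftRel (Subgroup.centralizer ({t} : Set G)) a b →
      a * t * a⁻¹ = b * t * b⁻¹ := by
    intro a b hab
    rw [QuotientGroup.leftRel_apply, Subgroup.mem_centralizer_singleton_iff] at hab
    have : b = a * (a⁻¹ * b) := by group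
    rw [this]
    calc a * t * a⁻¹ = a * (t * (a⁻¹ * b)) * (a⁻¹ * b)⁻¹ * a⁻¹ := by group
      _ = a * ((a⁻¹ * b) * t) * (a⁻¹ * b)⁻¹ * a⁻¹ := by rw [hab]
      _ = _ := by group
  have hord : ∀ a : G, orderOf (a * t * a⁻¹) = 2 := by
    intro a
    have := orderOf_injective (MulAut.conj a).toMonoidHom (MulAut.conj a).injective t
    rw [← ht, ← this]
    simp
  apply Nat.card_le_card_of_injective
    (fun q : G ⧸ Subgroup.centralizer ({t} : Set G) =>
      (⟨Quotient.liftOn' q (fun a => a * t * a⁻¹) hwd, by
        induction q using QuotientGroup.induction_on with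
        | H a => exact hord a⟩ : {t : G // orderOf t = 2}))
  intro q₁ q₂ h
  induction q₁ using QuotientGroup.induction_on with
  | H a =>
    induction q₂ using QuotientGroup.induction_on with
    | H b =>
      have h' : a * t * a⁻¹ = b * t * b⁻¹ := congrArg Subtype.val h
      apply QuotientGroup.eq.mpr
      rw [Subgroup.mem_centralizer_singleton_iff]
      calc a⁻¹ * b * t = a⁻¹ * (b * t * b⁻¹) * b := by group
        _ = a⁻¹ * (a * t * a⁻¹) * b := by rw [h']
        _ = t * (a⁻¹ * b) := by group

/-- A simple group embeds in the symmetric group on the cosets of a proper subgroup. -/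
theorem card_le_factorial_index [Finite G] [IsSimpleGroup G] (H : Subgroup G) (hH : H ≠ ⊤) :
    Nat.card G ≤ Nat.factorial H.index := by
  classical
  have hker : (MulAction.toPermHom G (G ⧸ H)).ker = ⊥ := by
    rcases (MulAction.toPermHom G (G ⧸ H)).normal_ker.eq_bot_or_eq_top with h | h
    · exact h
    · exfalso
      apply hH
      rw [eq_top_iff, ← h, ← Subgroup.normalCore_eq_ker]
      exact Subgroup.normalCore_le H
  have hinj : Function.Injective (MulAction.toPermHom G (G ⧸ H)) :=
    (MonoidHom.ker_eq_bot_iff _).mp hker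
  have := Fintype.ofFinite (G ⧸ H)
  calc Nat.card G ≤ Nat.card (Equiv.Perm (G ⧸ H)) := Nat.card_le_card_of_injective _ hinj
    _ = Nat.factorial H.index := by
      rw [Nat.card_eq_fintype_card, Fintype.card_perm, ← Nat.card_eq_fintype_card]
      rfl

end Cfsg.Agent.Lib.Helper2
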