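import Mathlib
import Cfsg.Agent.CharLib.BrauerInd
import Cfsg.Agent.Lib.Helper2.GrCent2

/-!
# Detecting invariant characters on `p`-elementary subgroups: the induction formula
-/

set_option autoImplicit false

namespace Cfsg.Agent.Lib.Helper2.DadeEl

open Cfsg Cfsg.Agent.CharLib Cfsg.Agent.CharLib.H2 Cfsg.Agent.BlockLib
open scoped ComplexConjugate

universe u

variable {G : Type u} [Group G] [Fintype G]

/-- the weighted mean over `N` -/
noncomputable def Lf (N : Subgroup G) [Fintype N] (w : N → ℂ) (f : G → ℂ) : ℂ :=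
  (Nat.card N : ℂ)⁻¹ * ∑ n : N, f n * w n

/-- the weighted mean over `E ⊓ N` -/
noncomputable def If (N E : Subgroup G) [Fintype ↥(E ⊓ N)] (w : N → ℂ) (ψ : E → ℂ) : ℂ :=
  (Nat.card ↥(E ⊓ N) : ℂ)⁻¹ * ∑ x : ↥(E ⊓ N), ψ ⟨x, x.2.1⟩ * w ⟨x, x.2.2⟩

theorem card_identity (N E : Subgroup G) [N.Normal] :
    Nat.card G * Nat.card ↥(E ⊓ N) = (E ⊔ N).index * (Nat.card N * Nat.card E) := by
  have h1 : N.relIndex (E ⊔ N) * (E ⊔ N).index = N.index :=
    Subgroup.relIndex_mul_index le_sup_right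
  have h2 : N.relIndex (E ⊔ N) = N.relIndex E := Subgroup.relIndex_sup_right E N
  have h3 : (E ⊓ N).relIndex E = N.relIndex E := Subgroup.inf_relIndex_left E N
  have h4 : Nat.card ↥(E ⊓ N) * (E ⊓ N).relIndex E = Nat.card E := by
    have := Subgroup.card_mul_index ((E ⊓ N).subgroupOf E)
    rwa [Nat.card_congr (Subgroup.subgroupOfEquivOfLe (inf_le_left : E ⊓ N ≤ E)).toEquiv] at this
  have h5 : Nat.card N * N.index = Nat.card G := N.card_mul_index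
  rw [← h5, ← h1, h2, ← h4, h3]
  ring

theorem Lf_indFun (N E : Subgroup G) [hN : N.Normal] [Fintype N] [Fintype ↥(E ⊓ N)] (w : N → ℂ)
    (hw : ∀ (g : G) (n : N), w ⟨g * n * g⁻¹, hN.conj_mem n n.2 g⟩ = w n) (ψ : E → ℂ) :
    Lf N w (indFun E ψ) = ((E ⊔ N).index : ℂ) * If N E w ψ := by
  classical
  have hx : ∀ x : G, ∑ n : N, extendByZero E ψ (x⁻¹ * n * x) * w n =
      ∑ n : N, extendByZero E ψ n * w n := by
    intro x
    refine Fintype.sum_equiv (MulAut.conjNormal x⁻¹ : N ≃* N).toEquiv _ _ fun n => ?_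
    have e1 : ((MulAut.conjNormal x⁻¹ n : N) : G) = x⁻¹ * n * x := by
      rw [MulAut.conjNormal_apply, inv_inv]
    have e2 : w (MulAut.conjNormal x⁻¹ n) = w n := by
      have h1 := hw x⁻¹ n
      have h2 : (MulAut.conjNormal x⁻¹ n : N) =
          ⟨x⁻¹ * n * x⁻¹⁻¹, hN.conj_mem n n.2 x⁻¹⟩ := Subtype.ext (MulAut.conjNormal_apply x⁻¹ n)
      rw [h2, h1]
    simp only [MulEquiv.toEquiv_eq_coe, MulEquiv.coe_toEquiv]
    rw [e1, e2]
  have hD : ∑ n : N, extendByZero E ψ n * w n =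
      ∑ x : ↥(E ⊓ N), ψ ⟨x, x.2.1⟩ * w ⟨x, x.2.2⟩ := by
    let F : G → ℂ := fun g => if h : g ∈ E ⊓ N then ψ ⟨g, h.1⟩ * w ⟨g, h.2⟩ else 0
    have h1 := GrCent.sum_eq_sum_subgroup N F (fun x hx => dif_neg (fun h => hx h.2))
    have h2 := GrCent.sum_eq_sum_subgroup (E ⊓ N) F (fun x hx => dif_neg hx)
    have h3 : ∑ x : N, F x = ∑ n : N, extendByZero E ψ n * w n := by
      refine Finset.sum_congr rfl fun n _ => ?_
      by_cases hE : (n : G) ∈ E
      · have hm : (n : G) ∈ E ⊓ N := ⟨hE, n.2⟩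
        simp only [F, dif_pos hm]
        rw [extendByZero_of_mem E ψ hE]
      · have hm : ¬ (n : G) ∈ E ⊓ N := fun h => hE h.1
        simp only [F, dif_neg hm]
        rw [extendByZero_of_not_mem E ψ hE, zero_mul]
    have h4 : ∑ x : ↥(E ⊓ N), F x = ∑ x : ↥(E ⊓ N), ψ ⟨x, x.2.1⟩ * w ⟨x, x.2.2⟩ :=
      Finset.sum_congr rfl fun x _ => dif_pos x.2
    rw [← h3, ← h1, h2, h4]
  have hsum : ∑ n : N, indFun E ψ n * w n =
      (Nat.card E : ℂ)⁻¹ * ((Nat.card G : ℂ) * ∑ x : ↥(E ⊓ N), ψ ⟨x, x.2.1⟩ * w ⟨x, x.2.2⟩) := by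
    have h0 : ∀ n : N, indFun E ψ n * w n =
        (Nat.card E : ℂ)⁻¹ * ∑ x : G, extendByZero E ψ (x⁻¹ * n * x) * w n := by
      intro n
      rw [indFun_apply, mul_assoc, Finset.sum_mul]
    rw [Finset.sum_congr rfl fun n _ => h0 n, ← Finset.mul_sum, Finset.sum_comm]
    congr 1
    rw [Finset.sum_congr rfl fun x _ => hx x, hD]
    simp [Nat.card_eq_fintype_card]
  unfold Lf If
  rw [hsum]
  have hc := card_identity N E
  have hc' : (Nat.card G : ℂ) * (Nat.card ↥(E ⊓ N) : ℂ) =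
      ((E ⊔ N).index : ℂ) * ((Nat.card N : ℂ) * (Nat.card E : ℂ)) := by exact_mod_cast hc
  have hN0 : (Nat.card N : ℂ) ≠ 0 := by exact_mod_cast Nat.card_pos.ne'
  have hE0 : (Nat.card E : ℂ) ≠ 0 := by exact_mod_cast Nat.card_pos.ne'
  have hD0 : (Nat.card ↥(E ⊓ N) : ℂ) ≠ 0 := by exact_mod_cast Nat.card_pos.ne'
  field_simp
  linear_combination (∑ x : ↥(E ⊓ N), ψ ⟨x, x.2.1⟩ * w ⟨x, x.2.2⟩) * hc'

end Cfsg.Agent.Lib.Helper2.DadeEl
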