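import Mathlib
import Cfsg.Agent.Lib.Helper2.DadeEl1
import Cfsg.Agent.Lib.Helper2.GlauAct
import Cfsg.Agent.Lib.Helper10.InvCons
import Cfsg.Agent.Lib.Helper23.DefectZero

/-!
# Detecting invariant characters on `p`-elementary subgroups
-/

set_option autoImplicit false

namespace Cfsg.Agent.Lib.Helper2.DadeEl

open Cfsg Cfsg.Agent.CharLib Cfsg.Agent.CharLib.H2 Cfsg.Agent.BlockLib
open scoped ComplexConjugate

universe u

variable {G : Type u} [Group G] [Fintype G]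

theorem If_nat (N E : Subgroup G) [Fintype ↥(E ⊓ N)] {ϑ : N → ℂ} (hϑ : IsCharacter N ϑ)
    {ψ : E → ℂ} (hψ : IsCharacter E ψ) :
    ∃ m : ℕ, If N E (fun n => ϑ n * conj (ϑ n)) ψ = m := by
  let iE : ↥(E ⊓ N) →* E := Subgroup.inclusion inf_le_left
  let iN : ↥(E ⊓ N) →* N := Subgroup.inclusion inf_le_right
  have h1 : IsCharacter ↥(E ⊓ N) (fun x => ψ (iE x)) := isCharacter_comp hψ iE
  have h2 : IsCharacter ↥(E ⊓ N) (fun x => ϑ (iN x)) := isCharacter_comp hϑ iN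
  obtain ⟨m, hm⟩ := classInner_char_nat (isCharacter_mul h1 h2) h2
  refine ⟨m, ?_⟩
  rw [← hm]
  unfold If classInner
  congr 1
  refine Finset.sum_congr rfl fun x _ => ?_
  exact (mul_assoc _ _ _).symm

theorem exists_elementary (p : ℕ) (hp : p.Prime) (N : Subgroup G) [hN : N.Normal] [Fintype N]
    (hind : ∃ k : ℕ, N.index = p ^ k) (ϑ : N → ℂ) (hϑ : IsIrrCharacter N ϑ)
    (hinv : ∀ (g : G) (n : N), ϑ ⟨g * n * g⁻¹, hN.conj_mem (n : G) n.2 g⟩ = ϑ n) :
    ∃ (E : Subgroup G) (ψ : E → ℂ) (m : ℕ), IsElementary p E ∧ E ⊔ N = ⊤ ∧ IsCharacter E ψ ∧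
      ¬ p ∣ m ∧ @If G _ N E (Fintype.ofFinite _) (fun n => ϑ n * conj (ϑ n)) ψ = m := by
  classical
  obtain ⟨k, hk⟩ := hind
  set w : N → ℂ := fun n => ϑ n * conj (ϑ n) with hwdef
  have hw : ∀ (g : G) (n : N), w ⟨g * n * g⁻¹, hN.conj_mem n n.2 g⟩ = w n := by
    intro g n
    simp only [hwdef, hinv g n]
  by_contra hcon
  push_neg at hcon
  have key : ∀ f ∈ IndSpan (IsElementary p) G, ∃ z : ℤ, Lf N w f = z ∧ (p : ℤ) ∣ z := by
    intro f hf
    unfold IndSpan at hf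
    induction hf using AddSubgroup.closure_induction with
    | mem x hx =>
      obtain ⟨E, φ, hE, hφ, rfl⟩ := hx
      letI : Fintype ↥(E ⊓ N) := Fintype.ofFinite _
      rw [Lf_indFun N E w hw φ]
      obtain ⟨m, hm⟩ := If_nat N E (isCharacter_of_irr hϑ) hφ
      refine ⟨(((E ⊔ N).index * m : ℕ) : ℤ), by rw [hm]; push_cast; ring, ?_⟩
      by_cases htop : E ⊔ N = ⊤
      · have h1 : p ∣ m := by
          by_contra h
          exact hcon E φ m hE htop hφ h hm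
        exact_mod_cast Dvd.dvd.mul_left h1 _
      · have h1 : (E ⊔ N).index ∣ p ^ k := hk ▸ Subgroup.index_dvd_of_le le_sup_right
        obtain ⟨j, -, hj⟩ := (Nat.dvd_prime_pow hp).1 h1
        have hj0 : j ≠ 0 := by
          rintro rfl
          exact htop (Subgroup.index_eq_one.mp (by simpa using hj))
        have h2 : p ∣ (E ⊔ N).index := hj ▸ dvd_pow_self p hj0
        exact_mod_cast Dvd.dvd.mul_right h2 _
    | zero => exact ⟨0, by simp [Lf], dvd_zero _⟩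
    | add x y _ _ hx hy =>
      obtain ⟨a, ha, ha'⟩ := hx
      obtain ⟨b, hb, hb'⟩ := hy
      refine ⟨a + b, ?_, dvd_add ha' hb'⟩
      have : Lf N w (x + y) = Lf N w x + Lf N w y := by
        unfold Lf
        rw [← mul_add, ← Finset.sum_add_distrib]
        congr 1
        exact Finset.sum_congr rfl fun n _ => by rw [Pi.add_apply, add_mul]
      rw [this, ha, hb]; push_cast; rfl
    | neg x _ hx =>
      obtain ⟨a, ha, ha'⟩ := hx
      refine ⟨-a, ?_, (dvd_neg).mpr ha'⟩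
      have : Lf N w (-x) = - Lf N w x := by
        unfold Lf
        rw [← mul_neg, ← Finset.sum_neg_distrib]
        congr 1
        exact Finset.sum_congr rfl fun n _ => by rw [Pi.neg_apply, neg_mul]
      rw [this, ha]; push_cast; rfl
  obtain ⟨m, hm, hmem⟩ := brauer_local (G := G) p hp
  obtain ⟨z, hz, hz'⟩ := key _ hmem
  have h3 : Lf N w (fun _ => (m : ℂ)) = m := by
    unfold Lf
    have h1 := classInner_irr_self hϑ
    rw [classInner] at h1
    rw [← Finset.mul_sum, mul_left_comm, h1, mul_one]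
  rw [h3] at hz
  have h4 : m = z := by exact_mod_cast hz
  exact hm (h4 ▸ hz')

theorem exists_inv_of_not_dvd (p : ℕ) (hp : p.Prime) (N E : Subgroup G) [hN : N.Normal]
    (hE : IsElementary p E) [Fintype ↥(E ⊓ N)] (ϑ : N → ℂ) (hϑ : IsCharacter N ϑ)
    (hinv : ∀ (g : G) (n : N), ϑ ⟨g * n * g⁻¹, hN.conj_mem (n : G) n.2 g⟩ = ϑ n)
    (ψ : E → ℂ) (hψ : IsCharacter E ψ) (m : ℕ) (hm : ¬ p ∣ m)
    (hI : If N E (fun n => ϑ n * conj (ϑ n)) ψ = m) :
    ∃ φ : IrrCharacter ↥(E ⊓ N), (∀ (g : G) (_ : g ∈ E) (x x' : ↥(E ⊓ N)),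
      (x' : G) = g * x * g⁻¹ → (φ : ↥(E ⊓ N) → ℂ) x' = (φ : ↥(E ⊓ N) → ℂ) x) ∧
      ∃ m' : ℕ, ¬ p ∣ m' ∧
        classInner (fun x : ↥(E ⊓ N) => ϑ ⟨x, x.2.2⟩) (φ : ↥(E ⊓ N) → ℂ) = m' := by
  classical
  haveI : Fact p.Prime := ⟨hp⟩
  obtain ⟨M, hM⟩ := Cfsg.Agent.Lib.Helper23.exists_isPModular p hp
  haveI := isPrime_of_isPModular hM
  have hne := ne_top_of_isPModular hM
  obtain ⟨x₀, hx₀c, -, k, hk⟩ := hE
  obtain ⟨S₀⟩ : Nonempty (Sylow p ↥E) := inferInstance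
  set S : Subgroup G := (S₀ : Subgroup ↥E).map E.subtype with hSdef
  have hS : IsPGroup p S := S₀.2.map _
  have hSE : S ≤ E := by
    rintro _ ⟨s, -, rfl⟩
    exact s.2
  have hn : Nrm (E ⊓ N) S := fun s hs g hg =>
    ⟨E.mul_mem (E.mul_mem (hSE hs) hg.1) (E.inv_mem (hSE hs)), hN.conj_mem g hg.2 s⟩
  letI := irrAct hn
  let iE : ↥(E ⊓ N) →* E := Subgroup.inclusion inf_le_left
  let iN : ↥(E ⊓ N) →* N := Subgroup.inclusion inf_le_right
  set F₂ : ↥(E ⊓ N) → ℂ := fun x => ϑ (iN x) with hF₂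
  set F₁ : ↥(E ⊓ N) → ℂ := (fun x => ψ (iE x)) * F₂ with hF₁
  have hc2 : IsCharacter ↥(E ⊓ N) F₂ := isCharacter_comp hϑ iN
  have hc1 : IsCharacter ↥(E ⊓ N) F₁ := isCharacter_mul (isCharacter_comp hψ iE) hc2
  have hi2 : ∀ (g : G) (_ : g ∈ E) (x x' : ↥(E ⊓ N)), (x' : G) = g * x * g⁻¹ → F₂ x' = F₂ x := by
    intro g _ x x' hx
    have h1 := hinv g (iN x)
    have h2 : iN x' = ⟨g * (iN x : N) * g⁻¹, hN.conj_mem _ (iN x).2 g⟩ := Subtype.ext hx
    show ϑ (iN x') = ϑ (iN x)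
    rw [h2, h1]
  have hi1 : ∀ (g : G) (_ : g ∈ E) (x x' : ↥(E ⊓ N)), (x' : G) = g * x * g⁻¹ → F₁ x' = F₁ x := by
    intro g hg x x' hx
    have h1 := isClassFunction_of_char hψ (iE x) ⟨g, hg⟩
    have h2 : iE x' = ⟨g, hg⟩ * iE x * ⟨g, hg⟩⁻¹ := Subtype.ext hx
    show ψ (iE x') * F₂ x' = ψ (iE x) * F₂ x
    rw [h2, h1, hi2 g hg x x' hx]
  have hs1 : SInv (E ⊓ N) S F₁ := fun s hs g g' h => hi1 s (hSE hs) g g' h
  have hs2 : SInv (E ⊓ N) S F₂ := fun s hs g g' h => hi2 s (hSE hs) g g' h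
  have ha : ∀ φ : IrrCharacter ↥(E ⊓ N), ∃ a : ℕ, classInner F₁ φ = a := fun φ =>
    classInner_char_nat hc1 (isCharacter_of_irr φ.2)
  have hb : ∀ φ : IrrCharacter ↥(E ⊓ N), ∃ b : ℕ, classInner F₂ φ = b := fun φ =>
    classInner_char_nat hc2 (isCharacter_of_irr φ.2)
  let f : IrrCharacter ↥(E ⊓ N) → ℂ := fun φ => classInner F₁ φ * classInner F₂ φ
  have hsum : ∑ φ, f φ = m := by
    rw [← hI]
    have h1 : If N E (fun n => ϑ n * conj (ϑ n)) ψ = classInner F₁ F₂ := by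
      unfold If classInner
      congr 1
      refine Finset.sum_congr rfl fun x _ => ?_
      exact (mul_assoc _ _ _).symm
    rw [h1]
    conv_rhs => rw [classFunction_eq_sum (isClassFunction_of_char hc2)]
    rw [classInner_sum_right]
    refine Finset.sum_congr rfl fun φ _ => ?_
    rw [classInner_smul_right]
    obtain ⟨b, hb'⟩ := hb φ
    show classInner F₁ φ * classInner F₂ φ = _
    rw [hb', Complex.conj_natCast, mul_comm]
  have key := memLocalIdeal_sum_sub_sum_fixed hM hS f (fun g φ => by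
      show classInner F₁ (irrConj hn g φ : ↥(E ⊓ N) → ℂ) *
        classInner F₂ (irrConj hn g φ : ↥(E ⊓ N) → ℂ) = _
      rw [Cfsg.Agent.Lib.Helper10.classInner_irrConj hn hs1,
        Cfsg.Agent.Lib.Helper10.classInner_irrConj hn hs2]) (fun φ => by
      obtain ⟨a, ha'⟩ := ha φ
      obtain ⟨b, hb'⟩ := hb φ
      show MemLocalRing M (classInner F₁ φ * classInner F₂ φ)
      rw [ha', hb']
      exact memLocalRing_mul (memLocalRing_natCast hne a) (memLocalRing_natCast hne b))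
  obtain ⟨φ, hφfix, hφ⟩ : ∃ φ : IrrCharacter ↥(E ⊓ N), (∀ g : S, g • φ = φ) ∧
      ¬ MemLocalIdeal M (classInner F₂ φ) := by
    by_contra hcon
    push_neg at hcon
    have h2 : MemLocalIdeal M (∑ φ, f φ) := by
      have h3 := memLocalIdeal_add key (memLocalIdeal_sum
        (Finset.univ.filter (fun x : IrrCharacter ↥(E ⊓ N) => ∀ g : S, g • x = x)) f
        (fun φ hφ => by
        have h0 : ∀ g : S, g • φ = φ := by simpa using hφ
        obtain ⟨a, ha'⟩ := ha φ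
        show MemLocalIdeal M (classInner F₁ φ * classInner F₂ φ)
        rw [ha']
        exact memLocalIdeal_mul_left (memLocalRing_natCast hne a) (hcon φ h0)))
      convert h3 using 1
      rw [eq_comm, sub_add_eq_add_sub, add_sub_assoc, add_eq_left, sub_eq_zero]
      refine Finset.sum_congr ?_ fun _ _ => rfl
      ext φ
      simp
    rw [hsum, memLocalIdeal_natCast_iff hM] at h2
    exact hm h2
  have hφS : SInv (E ⊓ N) S (φ : ↥(E ⊓ N) → ℂ) := (sInv_iff_irrConj hn φ).mpr hφfix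
  refine ⟨φ, ?_, ?_⟩
  · intro g hg x x' hx
    have htop := sup_sylow_eq_top (Subgroup.zpowers x₀) k hk S₀
    haveI hZn : (Subgroup.zpowers x₀).Normal := normal_of_le_center' (by
      rw [Subgroup.zpowers_le]; exact hx₀c)
    have hgm : (⟨g, hg⟩ : E) ∈ ((Subgroup.zpowers x₀ ⊔ (S₀ : Subgroup ↥E) : Subgroup ↥E) : Set ↥E) := by
      rw [htop]; trivial
    rw [Subgroup.normal_mul] at hgm
    obtain ⟨c, hc, s, hs, hcs⟩ := Set.mem_mul.mp hgm
    have hcc : c ∈ Subgroup.center ↥E := by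
      have : Subgroup.zpowers x₀ ≤ Subgroup.center ↥E := by
        rw [Subgroup.zpowers_le]; exact hx₀c
      exact this hc
    have hsS : (s : G) ∈ S := Subgroup.mem_map.mpr ⟨s, hs, rfl⟩
    refine hφS (s : G) hsS x x' ?_
    rw [hx]
    have hg' : g = (c : G) * (s : G) := (congrArg Subtype.val hcs).symm
    have hcomm : ∀ y : E, (c : G) * (y : G) = (y : G) * (c : G) := fun y =>
      (congrArg Subtype.val (Subgroup.mem_center_iff.mp hcc y)).symm
    have h1 := hcomm (s * iE x * s⁻¹)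
    have h2 : ((s * iE x * s⁻¹ : E) : G) = (s : G) * x * (s : G)⁻¹ := rfl
    rw [h2] at h1
    rw [hg']
    calc (c : G) * s * x * ((c : G) * s)⁻¹ = ((c : G) * ((s : G) * x * (s : G)⁻¹)) * (c : G)⁻¹ := by
          group
      _ = (s : G) * x * (s : G)⁻¹ := by rw [h1]; group
  · obtain ⟨b, hb'⟩ := hb φ
    refine ⟨b, ?_, hb'⟩
    intro hdvd
    apply hφ
    rw [hb', memLocalIdeal_natCast_iff hM]
    exact hdvd

end Cfsg.Agent.Lib.Helper2.DadeEl
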