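import Mathlib
import Cfsg.Agent.S0867
import Cfsg.Agent.S0887
import Cfsg.Agent.H6.Gallagher
import Cfsg.Agent.H25.CliffGe
import Cfsg.Agent.Lib.Helper2.OddIdx
import Cfsg.Agent.Lib.Helper2.BSMain
import Cfsg.Agent.Lib.Helper2.GlauCyc
import Cfsg.Agent.Lib.Helper10.CliffCorr
import Cfsg.Agent.Lib.Helper23.PSolv
import Cfsg.Agent.Lib.Helper23.CharDeg
import Cfsg.Agent.H9.PSolv
import Cfsg.Agent.H20.PSolvHall
import Cfsg.Agent.H6.PCore

/-!
# Heights in blocks of `p`-solvable groups: degrees over an invariant character of `O_{p'}(G)`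
-/

set_option autoImplicit false

namespace Cfsg.Agent.Lib.Helper2

open Cfsg Cfsg.Agent.CharLib Cfsg.Agent.Lib.Helper10
open scoped ComplexConjugate

universe u

/-- over an invariant character of a normal subgroup with abelian quotient of coprime order,
all characters are extensions -/
theorem apply_one_eq_of_abelian_coprime {G : Type u} [Group G] [Fintype G] {N W : Subgroup G}
    [Fintype N] [Fintype W] (hNW : N ≤ W) (hnorm : ∀ w ∈ W, ∀ n ∈ N, w * n * w⁻¹ ∈ N)
    (hab : ∀ x ∈ W, ∀ y ∈ W, x * y * x⁻¹ * y⁻¹ ∈ N)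
    (hcop : (N.relIndex W).Coprime (Nat.card N)) (θ : IrrCharacter N)
    (hinv : ∀ w ∈ W, ∀ n n' : N, (n' : G) = w * n * w⁻¹ → (θ : N → ℂ) n' = (θ : N → ℂ) n)
    (η : IrrCharacter W)
    (hη : classInner (fun n : N => (η : W → ℂ) ⟨(n : G), hNW n.2⟩) (θ : N → ℂ) ≠ 0) :
    (η : W → ℂ) 1 = (θ : N → ℂ) 1 := by
  classical
  haveI hN : (N.subgroupOf W).Normal := by
    refine ⟨fun n hn' g => ?_⟩
    exact Subgroup.mem_subgroupOf.mpr (hnorm g g.2 n (Subgroup.mem_subgroupOf.mp hn'))
  have hϑ := isIrrCharacter_resSub hNW θ.2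
  obtain ⟨d, hd0, hd1, hd2⟩ := L.irr_degree_dvd θ
  have hcardN : Nat.card (N.subgroupOf W) = Nat.card N :=
    Nat.card_congr (Subgroup.subgroupOfEquivOfLe hNW).toEquiv
  have hcop' : Nat.Coprime (N.subgroupOf W).index (detOrder (resSub N W (θ : N → ℂ)) * d) := by
    apply Nat.Coprime.mul_right
    · exact Nat.Coprime.coprime_dvd_right
        (hcardN ▸ detOrder_dvd_card (isCharacter_of_irr hϑ)) hcop
    · exact Nat.Coprime.coprime_dvd_right hd2 hcop
  obtain ⟨χ, ⟨hχ1, hχ2, -⟩, -⟩ := Cfsg.Agent.S0867.result (N.subgroupOf W)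
    (resSub N W (θ : N → ℂ)) hϑ
    (fun g n => hinv g g.2 ⟨((n : W) : G), Subgroup.mem_subgroupOf.mp n.2⟩ _ rfl) d hd1 hcop'
  have hres : (fun n : N.subgroupOf W => χ n) = resSub N W (θ : N → ℂ) := funext hχ2
  have key := H6.gallagher (N.subgroupOf W) hχ1 (by rw [hres]; exact hϑ)
  have hmem : (η : W → ℂ) ∈ {ψ : W → ℂ | IsIrrCharacter W ψ ∧
      classInner (indFun (N.subgroupOf W) (fun n : N.subgroupOf W => χ n)) ψ ≠ 0} := by
    refine ⟨η.2, ?_⟩
    rw [hres, H25.classInner_indFun_resSub hNW _ (isClassFunction_of_irr η.2)]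
    intro h0
    apply hη
    have := congrArg conj h0
    simpa using this
  obtain ⟨β, ⟨hβ1, hβ2⟩, hβ3⟩ := key.surjOn hmem
  have hβone : β 1 = 1 := by
    apply apply_one_eq_one_of_commutator_le hβ1
    intro g hg
    have hle : commutator W ≤ N.subgroupOf W := by
      rw [commutator_def, Subgroup.commutator_le]
      intro x _ y _
      rw [commutatorElement_def]
      exact Subgroup.mem_subgroupOf.mpr (hab x x.2 y y.2)
    exact const_of_over_one (N.subgroupOf W) hβ1 hβ2 ⟨g, hle hg⟩
  have h1 := congrFun hβ3 1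
  simp only [Pi.mul_apply] at h1
  rw [← h1, hβone, one_mul]
  exact hχ2 1

/-- the `p`-part of the degree of a character over an invariant character of `O_{p'}(G)` -/
theorem factorization_degree_le_of_invariant {G : Type u} [Group G] [Fintype G] (p : ℕ)
    [Fact p.Prime] (hsolv : IsPSolvable p G) (N : Subgroup G) [hN : N.Normal] [Fintype N]
    (hNdef : N = pPrimeCore p G) (θ : IrrCharacter N)
    (hinv : ∀ (g : G) (n : N), (θ : N → ℂ) ⟨g * n * g⁻¹, hN.conj_mem n n.2 g⟩ = (θ : N → ℂ) n)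
    (χ : IrrCharacter G) (hχ : classInner (fun n : N => (χ : G → ℂ) n) (θ : N → ℂ) ≠ 0)
    (P : Sylow p G) :
    (charDegree (χ : G → ℂ)).factorization p ≤
      ((Subgroup.center (P : Subgroup G)).index).factorization p := by
  classical
  have hp : p.Prime := Fact.out
  have hNcop : (Nat.card N).Coprime p := by rw [hNdef]; exact Cfsg.H9.pPrimeCore_coprime p
  have hcore : pPrimeCore p (G ⧸ N) = ⊥ := by
    subst hNdef
    exact Cfsg.H9.pPrimeCore_quotient p
  let π := QuotientGroup.mk' N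
  have hπ : Function.Surjective π := QuotientGroup.mk'_surjective N
  set R := pCore p (G ⧸ N) with hR
  haveI hRn : R.Normal := inferInstance
  have hRp : IsPGroup p R := Cfsg.H9.pCore_isPGroup p
  have hHH : Subgroup.centralizer (R : Set (G ⧸ N)) ≤ R :=
    Helper23.centralizer_pCore_le_of_isPSolvable p (H20.isPSolvable_quotient hp hsolv N) hcore
  let Zc : Subgroup (G ⧸ N) := (Subgroup.center R).map R.subtype
  haveI hZn : Zc.Normal := ConjAct.normal_of_characteristic_of_normal
  let W : Subgroup G := Zc.comap π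
  haveI hWn : W.Normal := hZn.comap π
  haveI : Fintype W := Fintype.ofFinite W
  have hNW : N ≤ W := fun n hn => by
    show π n ∈ Zc
    have : π n = 1 := (QuotientGroup.eq_one_iff n).mpr hn
    rw [this]; exact Zc.one_mem
  have hZcomm : ∀ a ∈ Zc, ∀ b ∈ Zc, a * b = b * a := by
    rintro _ ⟨a, ha, rfl⟩ _ ⟨b, hb, rfl⟩
    have := Subgroup.mem_center_iff.mp ha b
    exact congrArg Subtype.val this.symm
  have hab : ∀ x ∈ W, ∀ y ∈ W, x * y * x⁻¹ * y⁻¹ ∈ N := by
    intro x hx y hy
    rw [← QuotientGroup.eq_one_iff]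
    have h1 : π x * π y = π y * π x := hZcomm _ hx _ hy
    show π (x * y * x⁻¹ * y⁻¹) = 1
    rw [map_mul, map_mul, map_mul, map_inv, map_inv, h1]
    group
  have hZp : IsPGroup p Zc := (hRp.to_subgroup (Subgroup.center R)).map R.subtype
  obtain ⟨k, hk⟩ := IsPGroup.iff_card.mp hZp
  have hrel : N.relIndex W = Nat.card Zc := by
    have h1 : N.relIndex W = ((⊥ : Subgroup (G ⧸ N)).comap π).relIndex W := by
      congr 1
      rw [MonoidHom.comap_bot, QuotientGroup.ker_mk']
    rw [h1, Subgroup.relIndex_comap, Subgroup.map_comap_eq_self_of_surjective hπ,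
      Subgroup.relIndex_bot_left]
  have hidx : W.index = Zc.index := Subgroup.index_comap_of_surjective Zc hπ
  obtain ⟨η, hη1, hη2⟩ := (H25.classInner_res_ne_zero_iff hNW θ.2
    (isCharacter_restrict (isCharacter_of_irr χ.2) W)).1 hχ
  have hη3 : (η : W → ℂ) 1 = (θ : N → ℂ) 1 := by
    apply apply_one_eq_of_abelian_coprime hNW (fun w _ n hn => hN.conj_mem n hn w) hab _ θ _ η hη2
    · rw [hrel, hk]
      exact (Nat.Coprime.pow_right k hNcop).symm
    · intro w _ n n' hnn'
      rw [← hinv w n]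
      exact congrArg (θ : N → ℂ) (Subtype.ext hnn')
  obtain ⟨d, hd0, hd1, hd2⟩ := L.irr_degree_dvd θ
  have h887 := Cfsg.Agent.S0887.result W (χ : G → ℂ) χ.2 (η : W → ℂ) η.2 hη1
    (charDegree (χ : G → ℂ)) d (Helper23.charDegree_cast_irr χ).symm (by rw [hη3, hd1])
  obtain ⟨e, he⟩ := h887.1
  have hdp : ¬ p ∣ d := fun h =>
    (Nat.Prime.coprime_iff_not_dvd hp).mp hNcop.symm (h.trans hd2)
  have hc0 := Helper23.charDegree_pos_irr χ
  have he0 : e ≠ 0 := by
    rintro rfl
    rw [mul_zero] at he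
    omega
  have hediv : e ∣ W.index := by
    have := h887.2
    rwa [he, Nat.mul_div_cancel_left e hd0] at this
  have hW0 : W.index ≠ 0 := Subgroup.index_ne_zero_of_finite
  have hstep1 : (charDegree (χ : G → ℂ)).factorization p ≤ W.index.factorization p := by
    rw [he, Nat.factorization_mul hd0.ne' he0, Finsupp.add_apply,
      Nat.factorization_eq_zero_of_not_dvd hdp, zero_add]
    exact (Nat.factorization_le_iff_dvd he0 hW0).mpr hediv p
  refine hstep1.trans ?_
  -- the centre of `P` embeds in `Zc`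
  let Zp : Subgroup G := (Subgroup.center (P : Subgroup G)).map (P : Subgroup G).subtype
  have hZpP : IsPGroup p Zp := (P.2.to_subgroup _).map _
  have hRle : R ≤ (P : Subgroup G).map π := by
    have := H6.pCore_le_sylow (P.mapSurjective hπ)
    exact this
  have hle : Zp.map π ≤ Zc := by
    rintro _ ⟨_, ⟨z, hz, rfl⟩, rfl⟩
    have hcz : π ((P : Subgroup G).subtype z) ∈ Subgroup.centralizer (R : Set (G ⧸ N)) := by
      rw [Subgroup.mem_centralizer_iff]
      intro r hr
      obtain ⟨x, hx, rfl⟩ := hRle hr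
      have := Subgroup.mem_center_iff.mp hz ⟨x, hx⟩
      have h2 : x * (z : G) = (z : G) * x := congrArg Subtype.val this
      show π x * π (z : G) = π (z : G) * π x
      rw [← map_mul, ← map_mul, h2]
    refine ⟨⟨_, hHH hcz⟩, ?_, rfl⟩
    rw [SetLike.mem_coe, Subgroup.mem_center_iff]
    intro r
    apply Subtype.ext
    exact Subgroup.mem_centralizer_iff.mp hcz r r.2
  obtain ⟨c, hc⟩ := IsPGroup.iff_card.mp hZpP
  have hdisj : Zp ⊓ N = ⊥ := Subgroup.inf_eq_bot_of_coprime (by
    rw [hc]; exact (Nat.Coprime.pow_right c hNcop).symm)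
  have hck : c ≤ k := by
    have h1 : Nat.card Zp ≤ Nat.card Zc := by
      apply Nat.card_le_card_of_injective
        (fun z : Zp => (⟨π z, hle ⟨z, z.2, rfl⟩⟩ : Zc))
      intro z z' hzz'
      have h2 : π (z : G) = π (z' : G) := congrArg Subtype.val hzz'
      have h3 : (z : G)⁻¹ * (z' : G) ∈ N := QuotientGroup.eq.mp h2
      have h4 : (z : G)⁻¹ * (z' : G) ∈ Zp ⊓ N := ⟨Zp.mul_mem (Zp.inv_mem z.2) z'.2, h3⟩
      rw [hdisj, Subgroup.mem_bot] at h4
      exact Subtype.ext (inv_mul_eq_one.mp h4)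
    rw [hc, hk] at h1
    exact (Nat.pow_le_pow_iff_right hp.one_lt).mp h1
  have hcardP : Nat.card (P : Subgroup G) = p ^ (Nat.card G).factorization p :=
    P.card_eq_multiplicity
  have hcen : Nat.card (Subgroup.center (P : Subgroup G)) = p ^ c := by
    rw [← hc]
    exact (Subgroup.card_subtype _ _).symm
  have e1 := Subgroup.index_mul_card (Subgroup.center (P : Subgroup G))
  have e2 := Subgroup.index_mul_card Zc
  have e3 := Subgroup.card_eq_card_quotient_mul_card_subgroup N
  rw [hcen, hcardP] at e1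
  rw [hk] at e2
  have hZi0 : Zc.index ≠ 0 := Subgroup.index_ne_zero_of_finite
  have hCi0 : (Subgroup.center (P : Subgroup G)).index ≠ 0 := Subgroup.index_ne_zero_of_finite
  have f1 := congrArg (fun n => n.factorization p) e1
  have f2 := congrArg (fun n => n.factorization p) e2
  have f3 := congrArg (fun n => n.factorization p) e3
  beta_reduce at f1 f2 f3
  rw [Nat.factorization_mul hCi0 (pow_ne_zero c hp.ne_zero), Finsupp.add_apply,
    hp.factorization_pow, hp.factorization_pow, Finsupp.single_eq_same,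
    Finsupp.single_eq_same] at f1
  rw [Nat.factorization_mul hZi0 (pow_ne_zero k hp.ne_zero), Finsupp.add_apply,
    hp.factorization_pow, Finsupp.single_eq_same] at f2
  rw [Nat.factorization_mul Nat.card_pos.ne' Nat.card_pos.ne', Finsupp.add_apply,
    Nat.factorization_eq_zero_of_not_dvd (n := Nat.card N)
      ((Nat.Prime.coprime_iff_not_dvd hp).mp hNcop.symm), add_zero] at f3
  rw [hidx]
  omega

end Cfsg.Agent.Lib.Helper2
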