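import Mathlib
import Cfsg.Agent.Lib.Helper2.FongHt
import Cfsg.Agent.H25.Reynolds2
import Cfsg.Agent.H25.QuotDefect
import Cfsg.Agent.S4492
import Cfsg.Agent.S0914
import Cfsg.Agent.Lib.Helper22.PSolvSub

/-!
# Heights in blocks of `p`-solvable groups: the Fong reduction
-/

set_option autoImplicit false

namespace Cfsg.Agent.Lib.Helper2

open Cfsg Cfsg.Agent.BlockLib Cfsg.Agent.CharLib Cfsg.Agent.Lib.Helper23.MinMax
  Cfsg.Agent.Lib.Helper23 Cfsg.Agent.H25
open scoped ComplexConjugate

universe u

theorem index_center_congr {A B : Type*} [Group A] [Group B] (e : A ≃* B) :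
    (Subgroup.center A).index = (Subgroup.center B).index := by
  have h : Subgroup.center A = (Subgroup.center B).comap e.toMonoidHom := by
    ext a
    rw [Subgroup.mem_comap, Subgroup.mem_center_iff, Subgroup.mem_center_iff]
    constructor
    · intro h b
      obtain ⟨a', rfl⟩ := e.surjective b
      show e a' * e a = e a * e a'
      rw [← map_mul, ← map_mul, h a']
    · intro h a'
      apply e.injective
      rw [map_mul, map_mul]
      exact h (e a')
  rw [h]
  exact Subgroup.index_comap_of_surjective _ e.surjective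

variable {M : Ideal AlgInt} {p : ℕ} [Fact p.Prime]

theorem height_le_aux (hM : IsPModular p M) : ∀ (n : ℕ) (G : Type u) [Group G] [Fintype G],
    Nat.card G = n → IsPSolvable p G → ∀ (B : Set (IrrCharacter G)), IsPBlock M B →
    ∀ (P : Subgroup G), IsDefectGroup p M B P → ∀ χ ∈ B,
      blockHeight p B (χ : G → ℂ) ≤ ((Subgroup.center P).index).factorization p := by
  intro n
  induction n using Nat.strong_induction_on with
  | _ n ih =>
  intro G _ _ hcard hsolv B hB P hP χ hχ
  classical
  have hp : p.Prime := Fact.out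
  have hPr := isPrime_of_isPModular hM
  obtain ⟨N, hNdef⟩ : ∃ N : Subgroup G, N = pPrimeCore p G := ⟨_, rfl⟩
  haveI hNn : N.Normal := by rw [hNdef]; infer_instance
  have : Fintype N := Fintype.ofFinite _
  have hNcop : (Nat.card N).Coprime p := by rw [hNdef]; exact Cfsg.H9.pPrimeCore_coprime p
  obtain ⟨θ, hθ⟩ := exists_constituent (N := N) χ
  have hb : IsPBlock M (blockOf M (θ : N → ℂ)) := ⟨θ, rfl⟩
  have hbs : blockOf M (θ : N → ℂ) = {θ} := by
    apply (Cfsg.Agent.S0914.result p M hM θ).mp
    intro hd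
    have h1 : Nat.card N / charDegree (θ : N → ℂ) ∣ Nat.card N := Nat.div_dvd_of_dvd (by
      obtain ⟨d, hd0, hd1, hd2⟩ := L.irr_degree_dvd θ
      have : charDegree (θ : N → ℂ) = d := by
        have h2 := charDegree_cast_irr θ
        rw [hd1] at h2
        exact_mod_cast h2
      rw [this]; exact hd2)
    exact (Nat.Prime.coprime_iff_not_dvd hp).mp hNcop.symm (hd.trans h1)
  set b := blockOf M (θ : N → ℂ) with hbdef
  have hcov : Covers B b := ⟨χ, hχ, θ, mem_blockOf_self θ, hθ⟩
  set T : Subgroup G := CA.stab N (epsS M N b) with hTdef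
  have hT : IsStab T b := by
    intro g
    rw [cj_epsS_eq_iff hb g, hTdef, CA.mem_stab, Subgroup.normalizer_eq_top]
    simp
  have hNT : N ≤ T := by
    intro x hx
    rw [hT x]
    intro θ₁ hθ₁ θ' h
    have : θ' = θ₁ := by
      apply Subtype.ext
      funext n
      rw [h n]
      exact isClassFunction_of_irr θ₁.2 n ⟨x, hx⟩
    rw [this]; exact hθ₁
  by_cases hTtop : T = ⊤
  · have hinv : ∀ (g : G) (n : N),
        (θ : N → ℂ) ⟨g * n * g⁻¹, hNn.conj_mem n n.2 g⟩ = (θ : N → ℂ) n := by
      intro g n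
      have h1 := (hT g).1 (by rw [hTtop]; trivial) θ (mem_blockOf_self θ)
        ⟨H2.conjFun hNn (θ : N → ℂ) g, H2.isIrrCharacter_conjFun hNn θ.2 g⟩ (fun n => rfl)
      rw [hbs, Set.mem_singleton_iff] at h1
      have h2 := congrFun (congrArg Subtype.val h1) n
      exact h2
    obtain ⟨B₁, hB₁, hmem, -, hdef⟩ := Cfsg.Agent.S4492.result p M hM hsolv N hNdef θ hinv
    have hBB : B = B₁ := block_eq_of_mem hB hB₁ hχ ((hmem χ).2 hθ)
    obtain ⟨S, hS⟩ := hdef P (hBB ▸ hP)
    subst hS
    exact (Nat.sub_le _ _).trans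
      (factorization_degree_le_of_invariant p hsolv N hNdef θ hinv χ hθ S)
  · have : Fintype T := Fintype.ofFinite _
    obtain ⟨B', hB', hcov', hind⟩ :=
      (Cfsg.Agent.S4435.result p M hM N b hb T hT hNT).2.2 B hB hcov
    obtain ⟨hdef, hht⟩ := Cfsg.Agent.S4436.result p M hM N b hb T hT hNT B' hB' hcov' B hind
    obtain ⟨D, hD⟩ := H25.exists_isDefectGroup hM hB'
    obtain ⟨x, hx⟩ := QuotDefect.isDefectGroup_conj hM hB (hdef D hD) hP
    have hlt : Nat.card T < n := by
      rw [← hcard]
      by_contra hcon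
      push Not at hcon
      exact hTtop (Subgroup.eq_top_of_card_eq T (le_antisymm (Subgroup.card_le_card_group T) hcon))
    have hmem := CoversLe.mem_iff hM hT hb hNT hB' hcov' hind
    obtain ⟨ψ, hψ, e⟩ := (hmem χ).1 hχ
    obtain ⟨χ'', -, e', hh⟩ := hht ψ hψ
    have key := ih (Nat.card T) hlt T rfl (Helper22.isPSolvable_subgroup hp hsolv T) B' hB' D hD
      ψ hψ
    rw [e, ← e', hh]
    refine key.trans (le_of_eq ?_)
    subst hx
    refine congrArg (fun n : ℕ => n.factorization p) ?_
    exact index_center_congr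
      ((Subgroup.equivMapOfInjective D T.subtype T.subtype_injective).trans
        (Subgroup.equivMapOfInjective _ (MulAut.conj x).toMonoidHom (MulAut.conj x).injective))

end Cfsg.Agent.Lib.Helper2
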