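import Mathlib
import Cfsg.Agent.Lib.Helper2.GlauCyc
import Cfsg.Agent.CharLib.L.AbelianIndex

/-!
Cyclic coprime action in which all non-identity operators have the same fixed points.
-/

set_option autoImplicit false

namespace Cfsg.Agent.Lib.Helper2

open Cfsg Cfsg.Agent.CharLib Cfsg.Agent.CharLib.L
open scoped ComplexConjugate

/-- the possible values of `n ∑ a² - (∑ a)²` for an integer vector of length `n`. -/
theorem quad_class {ι : Type*} [Fintype ι] [DecidableEq ι] (a : ι → ℤ) (n : ℤ)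
    (hn : n = Fintype.card ι) (hn2 : 2 ≤ n) :
    (n * ∑ l, a l ^ 2 - (∑ l, a l) ^ 2 = 0 ∧ ∃ m, ∀ l, a l = m) ∨
    (n * ∑ l, a l ^ 2 - (∑ l, a l) ^ 2 = n - 1 ∧ ∃ (m : ℤ) (l₀ : ι) (ε : ℤ), (ε = 1 ∨ ε = -1) ∧
      ∀ l, a l = m + if l = l₀ then ε else 0) ∨
    n - 1 < n * ∑ l, a l ^ 2 - (∑ l, a l) ^ 2 := by
  set T := ∑ l, a l with hT
  set m := T / n with hm
  set r := T % n with hr
  have hn0 : 0 < n := by omega
  have hr0 : 0 ≤ r := Int.emod_nonneg _ hn0.ne'
  have hrn : r < n := Int.emod_lt_of_pos _ hn0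
  have hTmr : T = n * m + r := (Int.mul_ediv_add_emod T n).symm
  set d : ι → ℤ := fun l => a l - m with hd
  have hsd : ∑ l, d l = r := by
    simp only [hd, Finset.sum_sub_distrib, Finset.sum_const, Finset.card_univ, nsmul_eq_mul]
    rw [← hT, ← hn]
    linarith
  set D2 := ∑ l, d l ^ 2 with hD2
  have hA2 : ∑ l, a l ^ 2 = D2 + 2 * m * r + n * m ^ 2 := by
    have h1 : ∀ l, a l ^ 2 = d l ^ 2 + 2 * m * d l + m ^ 2 := by
      intro l; simp only [hd]; ring
    simp only [h1, Finset.sum_add_distrib, ← Finset.mul_sum, hsd, Finset.sum_const,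
      Finset.card_univ, nsmul_eq_mul]
    rw [← hn]
  have hterm : ∀ l, 0 ≤ d l ^ 2 - d l := by
    intro l
    rcases le_or_gt (d l) 0 with h | h
    · nlinarith
    · nlinarith
  have hE : D2 - r = ∑ l, (d l ^ 2 - d l) := by
    rw [Finset.sum_sub_distrib, hsd]
  have hE0 : 0 ≤ D2 - r := by rw [hE]; exact Finset.sum_nonneg fun l _ => hterm l
  have hQ : n * ∑ l, a l ^ 2 - T ^ 2 = r * (n - r) + n * (D2 - r) := by
    rw [hA2, hTmr]; ring
  rw [hQ]
  rcases eq_or_lt_of_le hE0 with hE1 | hE1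
  · -- all `d l` are `0` or `1`
    have h01 : ∀ l, d l = 0 ∨ d l = 1 := by
      intro l
      have h1 := (Finset.sum_eq_zero_iff_of_nonneg (fun l _ => hterm l)).mp (hE ▸ hE1.symm) l
        (Finset.mem_univ _)
      have h2 : d l * (d l - 1) = 0 := by linarith [h1, sq (d l)]
      rcases mul_eq_zero.mp h2 with h3 | h3
      · exact Or.inl h3
      · exact Or.inr (by linarith)
    rw [← hE1, mul_zero, add_zero]
    rcases eq_or_lt_of_le hr0 with hr1 | hr1
    · -- r = 0
      left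
      refine ⟨by rw [← hr1]; ring, m, fun l => ?_⟩
      have h1 : D2 = 0 := by linarith
      have h2 := (Finset.sum_eq_zero_iff_of_nonneg (fun l _ => sq_nonneg (d l))).mp h1 l
        (Finset.mem_univ _)
      have h3 : d l = 0 := pow_eq_zero_iff (two_ne_zero) |>.1 h2
      simp only [hd] at h3
      linarith
    · rcases eq_or_lt_of_le (show 1 ≤ r by omega) with hr2 | hr2
      · -- r = 1
        right; left
        refine ⟨by rw [← hr2]; ring, ?_⟩
        have h1 : ∑ l ∈ Finset.univ, d l ^ 2 = 1 := by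
          show D2 = 1
          linarith
        obtain ⟨l₀, -, h2, h3⟩ := Cfsg.Agent.Lib.Helper10.int_sq_sum_one _ d h1
        refine ⟨m, l₀, 1, Or.inl rfl, fun l => ?_⟩
        split_ifs with hl
        · subst hl
          have h4 : d l = 1 := by
            rcases h01 l with h5 | h5
            · rcases h2 with h6 | h6 <;> omega
            · exact h5
          simp only [hd] at h4
          linarith
        · have h4 := h3 l (Finset.mem_univ _) hl
          simp only [hd] at h4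
          linarith
      · rcases eq_or_lt_of_le (show r ≤ n - 1 by omega) with hr3 | hr3
        · -- r = n - 1
          right; left
          refine ⟨by rw [hr3]; ring, ?_⟩
          have h1 : ∑ l ∈ Finset.univ, (1 - d l) ^ 2 = 1 := by
            have h4 : ∀ l, (1 - d l) ^ 2 = 1 - 2 * d l + d l ^ 2 := fun l => by ring
            simp only [h4, Finset.sum_add_distrib, Finset.sum_sub_distrib, ← Finset.mul_sum, hsd,
              Finset.sum_const, Finset.card_univ, nsmul_eq_mul]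
            rw [← hn, ← hD2]
            linarith
          obtain ⟨l₀, -, h2, h3⟩ := Cfsg.Agent.Lib.Helper10.int_sq_sum_one _ (fun l => 1 - d l) h1
          refine ⟨m + 1, l₀, -1, Or.inr rfl, fun l => ?_⟩
          split_ifs with hl
          · subst hl
            have h4 : d l = 0 := by
              rcases h01 l with h5 | h5
              · exact h5
              · rcases h2 with h6 | h6 <;> omega
            simp only [hd] at h4
            linarith
          · have h4 := h3 l (Finset.mem_univ _) hl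
            simp only [hd] at h4
            linarith
        · right; right
          nlinarith
  · right; right
    have h1 : 1 ≤ D2 - r := by omega
    have h2 : 0 ≤ r * (n - r) := mul_nonneg hr0 (by omega)
    nlinarith

section fpf

variable {Γ : Type*} [Group Γ] [Fintype Γ] {G S C : Subgroup Γ} {s : Γ}

theorem shift_norm (G C : Subgroup Γ) [hG : G.Normal] [Fintype G] [Fintype C] (x : Γ)
    (hC : ∀ y, y ∈ C ↔ y ∈ G ∧ y * x = x * y) (m : ℕ) (hm : ∀ c ∈ C, (c * x) ^ m = x)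
    (χh : IrrCharacter Γ) (hirr : IsIrrCharacter G (fun g : G => (χh : Γ → ℂ) g)) :
    classInner (fun c : C => (χh : Γ → ℂ) ((c : Γ) * x))
      (fun c : C => (χh : Γ → ℂ) ((c : Γ) * x)) = 1 := by
  have h3 : (Nat.card C : ℂ) * ∑ g : G, (χh : Γ → ℂ) ((g : Γ) * x) * conj ((χh : Γ → ℂ) ((g : Γ) * x))
      = (Nat.card G : ℂ) * ∑ c : C, (χh : Γ → ℂ) ((c : Γ) * x) * conj ((χh : Γ → ℂ) ((c : Γ) * x)) :=
    coset_sum G C x hC m hm (fun y => (χh : Γ → ℂ) y * conj ((χh : Γ → ℂ) y))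
      (fun g y => by simp only [isClassFunction_of_irr χh.2 g y])
  have h1 := Cfsg.Agent.S0868.result G (χh : Γ → ℂ) χh.2 hirr (χh : Γ → ℂ) χh.2 _ rfl
  have h2 : (Nat.card G : ℂ)⁻¹ * ∑ g : G, (χh : Γ → ℂ) ((g : Γ) * x) * conj ((χh : Γ → ℂ) ((g : Γ) * x))
      = 1 := congrFun (h1.2.2 rfl) x
  have hG0 : (Nat.card G : ℂ) ≠ 0 := by exact_mod_cast Nat.card_pos.ne'
  have hC0 : (Nat.card C : ℂ) ≠ 0 := by exact_mod_cast Nat.card_pos.ne'
  rw [inv_mul_eq_iff_eq_mul₀ hG0, mul_one] at h2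
  rw [h2] at h3
  rw [classInner, inv_mul_eq_iff_eq_mul₀ hC0, mul_one]
  have h4 : (Nat.card G : ℂ) * (∑ c : C, (χh : Γ → ℂ) ((c : Γ) * x) * conj ((χh : Γ → ℂ) ((c : Γ) * x)))
      = (Nat.card G : ℂ) * (Nat.card C : ℂ) := by rw [← h3]; ring
  exact mul_left_cancel₀ hG0 h4

namespace CY

omit [Fintype Γ] in
theorem isClassFunction_shift' (h : CY G S C s) {ψ : Γ → ℂ} (hψ : IsClassFunction Γ ψ) {y : Γ}
    (hy : y ∈ S) : IsClassFunction C (fun c : C => ψ ((c : Γ) * y)) := by
  intro c x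
  show ψ (((x * c * x⁻¹ : C) : Γ) * y) = ψ ((c : Γ) * y)
  rw [← hψ ((c : Γ) * y) x]
  congr 1
  have h1 : (x : Γ)⁻¹ * y = y * (x : Γ)⁻¹ := h.comm (C.inv_mem x.2) hy
  push_cast
  rw [mul_assoc, h1]
  group

omit [Fintype Γ] in
theorem comm_S (h : CY G S C s) (x y : S) : x * y = y * x := by
  obtain ⟨x, hx⟩ := x
  obtain ⟨y, hy⟩ := y
  have hx' : x ∈ Subgroup.zpowers s := by rw [h.hs]; exact hx
  have hy' : y ∈ Subgroup.zpowers s := by rw [h.hs]; exact hy
  obtain ⟨i, rfl⟩ := Subgroup.mem_zpowers_iff.mp hx'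
  obtain ⟨j, rfl⟩ := Subgroup.mem_zpowers_iff.mp hy'
  exact Subtype.ext ((Commute.refl s).zpow_zpow i j)

theorem fpf_struct (h : CY G S C s) [Fintype G] [Fintype C] [Fintype S]
    (hfpf : ∀ x ∈ S, x ≠ 1 → G ⊓ Subgroup.centralizer ({x} : Set Γ) = C) (hS2 : 2 ≤ Nat.card S)
    (χh : IrrCharacter Γ) (hirr : IsIrrCharacter G (fun g : G => (χh : Γ → ℂ) g))
    (β : IrrCharacter C) (ε₀ : ℤ) (hε₀ : ε₀ = 1 ∨ ε₀ = -1)
    (hval : ∀ c : C, (χh : Γ → ℂ) ((c : Γ) * s) = (ε₀ : ℂ) * (β : C → ℂ) c) :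
    ∃ (ε : ℤ) (l₀ : IrrCharacter S) (m : IrrCharacter C → ℕ), (ε = 1 ∨ ε = -1) ∧
      ∀ (c : C) (x : S), (χh : Γ → ℂ) ((c : Γ) * x)
        = (∑ β' : IrrCharacter C, (m β' : ℂ) * (β' : C → ℂ) c)
            * (∑ l : IrrCharacter S, (l : S → ℂ) x)
          + (ε : ℂ) * (β : C → ℂ) c * (l₀ : S → ℂ) x := by
  classical
  haveI := h.normal
  choose a ha using fun β' : IrrCharacter C => h.exists_coef (isCharacter_of_irr χh.2) β'
  have hl1 : ∀ l : IrrCharacter S, (l : S → ℂ) 1 = 1 := irr_apply_one_of_comm h.comm_S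
  have hS0 : (Nat.card S : ℂ) ≠ 0 := by exact_mod_cast Nat.card_pos.ne'
  have hcard : (Fintype.card (IrrCharacter S) : ℂ) = Nat.card S := by
    have h1 := sum_irr_sq (G := S)
    simpa [hl1] using h1
  have hreg : ∀ x : S, x ≠ 1 → ∑ l : IrrCharacter S, (l : S → ℂ) x = 0 := by
    intro x hx
    have h1 := sum_irr_one_mul x
    simpa [hl1, hx] using h1
  have hexp : ∀ (x : S) (c : C), (χh : Γ → ℂ) ((c : Γ) * x)
      = ∑ β' : IrrCharacter C, (∑ l : IrrCharacter S, (a β' l : ℂ) * (l : S → ℂ) x) * (β' : C → ℂ) c := by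
    intro x c
    have h1 := congrFun (classFunction_eq_sum
      (h.isClassFunction_shift' (isClassFunction_of_irr χh.2) x.2)) c
    simp only [Finset.sum_apply, Pi.smul_apply, smul_eq_mul, ha] at h1
    exact h1
  have hnorm : ∀ x : S, x ≠ 1 → ∑ β' : IrrCharacter C,
      (∑ l : IrrCharacter S, (a β' l : ℂ) * (l : S → ℂ) x)
        * conj (∑ l : IrrCharacter S, (a β' l : ℂ) * (l : S → ℂ) x) = 1 := by
    intro x hx
    obtain ⟨m, hm1, hm2⟩ := Nat.chineseRemainder h.hcop 0 1
    have hx1 : (x : Γ) ≠ 1 := fun hh => hx (Subtype.ext hh)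
    have hCx : ∀ y, y ∈ C ↔ y ∈ G ∧ y * (x : Γ) = x * y := by
      intro y
      rw [← hfpf x x.2 hx1, Subgroup.mem_inf, Subgroup.mem_centralizer_singleton_iff]
    have hpow : ∀ c ∈ C, (c * (x : Γ)) ^ m = x := by
      intro c hc
      have h2 : x ^ m = x ^ 1 := pow_eq_pow_iff_modEq.mpr (hm2.of_dvd (orderOf_dvd_natCard x))
      have h3 : (x : Γ) ^ m = x := by
        rw [pow_one] at h2
        exact_mod_cast congrArg Subtype.val h2
      rw [(show Commute c (x : Γ) from h.comm hc x.2).mul_pow, h.pow_eq_of_modEq_G (h.le hc) hm1,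
        pow_zero, one_mul, h3]
    have h1 := shift_norm G C x hCx m hpow χh hirr
    have h2 := classFunction_eq_sum (h.isClassFunction_shift' (isClassFunction_of_irr χh.2) x.2)
    have h3 : classInner (fun c : C => (χh : Γ → ℂ) ((c : Γ) * x))
        (fun c : C => (χh : Γ → ℂ) ((c : Γ) * x))
        = ∑ β' : IrrCharacter C, classInner (fun c : C => (χh : Γ → ℂ) ((c : Γ) * x)) (β' : C → ℂ)
          * conj (classInner (fun c : C => (χh : Γ → ℂ) ((c : Γ) * x)) (β' : C → ℂ)) := by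
      conv_lhs => rw [h2]
      exact classInner_sum_sum _ _
    rw [h3] at h1
    simp only [ha] at h1
    exact h1
  have hpars : ∀ β' : IrrCharacter C, ∑ x : S,
      (∑ l : IrrCharacter S, (a β' l : ℂ) * (l : S → ℂ) x)
        * conj (∑ l : IrrCharacter S, (a β' l : ℂ) * (l : S → ℂ) x)
      = (Nat.card S : ℂ) * ∑ l : IrrCharacter S, (a β' l : ℂ) ^ 2 := by
    intro β'
    have h1 := classInner_sum_sum (G := S) (fun l => (a β' l : ℂ)) (fun l => (a β' l : ℂ))
    rw [classInner, inv_mul_eq_iff_eq_mul₀ hS0] at h1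
    simp only [Finset.sum_apply, Pi.smul_apply, smul_eq_mul, Complex.conj_natCast] at h1
    rw [h1]
    congr 1
    exact Finset.sum_congr rfl fun l _ => (sq _).symm
  have htot : ∑ β' : IrrCharacter C, ((Nat.card S : ℂ) * ∑ l : IrrCharacter S, (a β' l : ℂ) ^ 2
      - (∑ l : IrrCharacter S, (a β' l : ℂ)) ^ 2) = (Nat.card S : ℂ) - 1 := by
    rw [Finset.sum_sub_distrib]
    simp only [← hpars]
    rw [Finset.sum_comm, ← Finset.add_sum_erase Finset.univ _ (Finset.mem_univ (1 : S))]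
    have e1 : ∑ x ∈ Finset.univ.erase (1 : S), ∑ β' : IrrCharacter C,
        (∑ l : IrrCharacter S, (a β' l : ℂ) * (l : S → ℂ) x)
          * conj (∑ l : IrrCharacter S, (a β' l : ℂ) * (l : S → ℂ) x)
        = (Nat.card S : ℂ) - 1 := by
      rw [Finset.sum_congr rfl (fun x hx => hnorm x (Finset.ne_of_mem_erase hx)), Finset.sum_const,
        Finset.card_erase_of_mem (Finset.mem_univ _), Finset.card_univ, nsmul_eq_mul, mul_one,
        Nat.cast_sub Fintype.card_pos, Nat.card_eq_fintype_card, Nat.cast_one]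
    rw [e1]
    simp only [hl1, mul_one, map_sum, Complex.conj_natCast]
    have e2 : ∀ β' : IrrCharacter C, (∑ l : IrrCharacter S, (a β' l : ℂ)) * ∑ l : IrrCharacter S, (a β' l : ℂ)
        = (∑ l : IrrCharacter S, (a β' l : ℂ)) ^ 2 := fun β' => (sq _).symm
    simp only [e2]
    ring
  set n : ℤ := (Nat.card S : ℤ) with hn
  have hnc : n = Fintype.card (IrrCharacter S) := by
    have : ((Fintype.card (IrrCharacter S) : ℕ) : ℂ) = ((Nat.card S : ℕ) : ℂ) := hcard
    have h2 : Fintype.card (IrrCharacter S) = Nat.card S := by exact_mod_cast this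
    rw [hn, h2]
  have hn2 : 2 ≤ n := by rw [hn]; exact_mod_cast hS2
  set Q : IrrCharacter C → ℤ := fun β' => n * ∑ l : IrrCharacter S, (a β' l : ℤ) ^ 2
      - (∑ l : IrrCharacter S, (a β' l : ℤ)) ^ 2 with hQ
  have hZ : ∑ β' : IrrCharacter C, Q β' = n - 1 := by
    have h1 : ((∑ β' : IrrCharacter C, Q β' : ℤ) : ℂ) = ((n - 1 : ℤ) : ℂ) := by
      simp only [hQ, hn]
      push_cast
      exact htot
    exact_mod_cast h1
  have hcl := fun β' : IrrCharacter C => quad_class (fun l => (a β' l : ℤ)) n hnc hn2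
  have hQ0 : ∀ β', 0 ≤ Q β' := by
    intro β'
    rcases hcl β' with h1 | h1 | h1
    · exact h1.1.ge
    · have := h1.1
      simp only [hQ]; omega
    · simp only [hQ]; omega
  have hs1 : (⟨s, h.s_mem⟩ : S) ≠ 1 := by
    intro hh
    have h1 : s = 1 := congrArg Subtype.val hh
    have h2 := h.orderOf_s
    rw [h1, orderOf_one] at h2
    omega
  have hQβ : Q β ≠ 0 := by
    intro h0
    rcases hcl β with h1 | h1 | h1
    · obtain ⟨m, hm⟩ := h1.2
      have h2 := ha β ⟨s, h.s_mem⟩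
      have h3 : ∀ l, (a β l : ℂ) = (m : ℂ) := fun l => by exact_mod_cast hm l
      simp only [h3, ← Finset.mul_sum, hreg _ hs1, mul_zero, hval] at h2
      have h5 := inner_signed β hε₀ (Or.inl rfl : (1 : ℤ) = 1 ∨ (1 : ℤ) = -1)
      simp only [Int.cast_one, one_mul] at h5
      exact h5 h2
    · have := h1.1
      simp only [hQ] at h0; omega
    · simp only [hQ] at h0; omega
  have hsplit : Q β + ∑ β' ∈ Finset.univ.erase β, Q β' = n - 1 := by
    rw [Finset.add_sum_erase _ _ (Finset.mem_univ β)]; exact hZ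
  have hrest0 : 0 ≤ ∑ β' ∈ Finset.univ.erase β, Q β' := Finset.sum_nonneg fun β' _ => hQ0 β'
  have hQβ' : n - 1 ≤ Q β := by
    rcases hcl β with h1 | h1 | h1
    · exact absurd h1.1 hQβ
    · exact h1.1.ge
    · exact h1.le
  have hQβeq : Q β = n - 1 := by omega
  have hrest : ∀ β', β' ≠ β → Q β' = 0 := by
    intro β' hne
    have h1 : ∑ β' ∈ Finset.univ.erase β, Q β' = 0 := by omega
    exact (Finset.sum_eq_zero_iff_of_nonneg (fun β' _ => hQ0 β')).mp h1 β'
      (Finset.mem_erase.mpr ⟨hne, Finset.mem_univ _⟩)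
  obtain ⟨M, l₀, ε, hε, hM⟩ : ∃ (m : ℤ) (l₀ : IrrCharacter S) (ε : ℤ), (ε = 1 ∨ ε = -1) ∧
      ∀ l, (a β l : ℤ) = m + if l = l₀ then ε else 0 := by
    rcases hcl β with h1 | h1 | h1
    · exact absurd h1.1 hQβ
    · exact h1.2
    · exfalso
      have : n - 1 < Q β := h1
      omega
  have hconst : ∀ β', β' ≠ β → ∃ m : ℤ, ∀ l, (a β' l : ℤ) = m := by
    intro β' hne
    have h0 := hrest β' hne
    rcases hcl β' with h1 | h1 | h1
    · exact h1.2
    · exfalso
      have : Q β' = n - 1 := h1.1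
      omega
    · exfalso
      have : n - 1 < Q β' := h1
      omega
  obtain ⟨l₁, hl₁⟩ : ∃ l₁ : IrrCharacter S, l₁ ≠ l₀ := by
    apply Fintype.exists_ne_of_one_lt_card
    have : (2 : ℤ) ≤ Fintype.card (IrrCharacter S) := hnc ▸ hn2
    omega
  have key : ∀ β' l, (a β' l : ℂ) = (a β' l₁ : ℂ) + if l = l₀ then (if β' = β then (ε : ℂ) else 0) else 0 := by
    intro β' l
    by_cases hb : β' = β
    · subst hb
      have h1 := hM l
      have h2 := hM l₁
      rw [if_neg hl₁, add_zero] at h2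
      rw [← h2] at h1
      have h3 : ((a β' l : ℤ) : ℂ) = (((a β' l₁ : ℤ) + if l = l₀ then ε else 0 : ℤ) : ℂ) := by rw [h1]
      push_cast at h3
      rw [h3]
      simp
    · obtain ⟨m, hm⟩ := hconst β' hb
      have h1 : (a β' l : ℤ) = a β' l₁ := by rw [hm l, hm l₁]
      have h2 : a β' l = a β' l₁ := by exact_mod_cast h1
      rw [h2]
      simp [hb]
  refine ⟨ε, l₀, fun β' => a β' l₁, hε, fun c x => ?_⟩
  rw [hexp x c]
  have e1 : ∀ β' : IrrCharacter C, ∑ l : IrrCharacter S, (a β' l : ℂ) * (l : S → ℂ) x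
      = (a β' l₁ : ℂ) * (∑ l : IrrCharacter S, (l : S → ℂ) x)
        + if β' = β then (ε : ℂ) * (l₀ : S → ℂ) x else 0 := by
    intro β'
    rw [Finset.sum_congr rfl (fun l _ => by rw [key β' l])]
    simp only [add_mul, Finset.sum_add_distrib, ← Finset.mul_sum, ite_mul, zero_mul,
      Finset.sum_ite_eq', Finset.mem_univ, if_true]
  simp only [e1, add_mul, Finset.sum_add_distrib, ite_mul, zero_mul, Finset.sum_ite_eq',
    Finset.mem_univ, if_true, Finset.sum_mul]
  congr 1
  · exact Finset.sum_congr rfl fun β' _ => by ring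
  · ring

end CY

end fpf

end Cfsg.Agent.Lib.Helper2
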