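import Mathlib
import Cfsg.Agent.H20.CoprimeAb2
import Cfsg.Agent.H4.Frattini
import Cfsg.Agent.Tr.MinNonPNil

/-!
# Normal Hall subgroups inside the derived subgroup
-/

set_option autoImplicit false

namespace Cfsg.Agent.Lib.Helper2.HallDer

open Subgroup
open scoped commutatorElement

variable {G : Type*} [Group G]

theorem conj_mem_comm_left (H K : Subgroup G) {x : G} (hx : x ∈ H) :
    ∀ m ∈ ⁅H, K⁆, x * m * x⁻¹ ∈ ⁅H, K⁆ := by
  have h : ⁅H, K⁆ ≤ (⁅H, K⁆).comap (MulAut.conj x).toMonoidHom := by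
    rw [Subgroup.commutator_le]
    intro h hh k hk
    show x * ⁅h, k⁆ * x⁻¹ ∈ ⁅H, K⁆
    have h1 : x * ⁅h, k⁆ * x⁻¹ = ⁅x * h, k⁆ * ⁅x, k⁆⁻¹ := by
      simp only [commutatorElement_def]
      group
    rw [h1]
    exact mul_mem (commutator_mem_commutator (mul_mem hx hh) hk)
      (inv_mem (commutator_mem_commutator hx hk))
  exact fun m hm => h hm

theorem conj_mem_comm_right (H K : Subgroup G) [hH : H.Normal] {x : G} (hx : x ∈ K) :
    ∀ m ∈ ⁅H, K⁆, x * m * x⁻¹ ∈ ⁅H, K⁆ := by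
  have h : ⁅H, K⁆ ≤ (⁅H, K⁆).comap (MulAut.conj x).toMonoidHom := by
    rw [Subgroup.commutator_le]
    intro h hh k hk
    show x * ⁅h, k⁆ * x⁻¹ ∈ ⁅H, K⁆
    have h1 : x * ⁅h, k⁆ * x⁻¹ = ⁅x * h * x⁻¹, x * k * x⁻¹⁆ := by
      simp only [commutatorElement_def]
      group
    rw [h1]
    exact commutator_mem_commutator (hH.conj_mem h hh x) (mul_mem (mul_mem hx hk) (inv_mem hx))
  exact fun m hm => h hm

theorem comm_normal (H K : Subgroup G) [hH : H.Normal] (htop : H ⊔ K = ⊤) : (⁅H, K⁆).Normal := by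
  rw [← Subgroup.normalizer_eq_top_iff, eq_top_iff, ← htop, sup_le_iff]
  constructor
  · intro x hx
    rw [Subgroup.mem_normalizer_iff]
    intro m
    refine ⟨conj_mem_comm_left H K hx m, fun h => ?_⟩
    have := conj_mem_comm_left H K (inv_mem hx) _ h
    simpa [mul_assoc] using this
  · intro x hx
    rw [Subgroup.mem_normalizer_iff]
    intro m
    refine ⟨conj_mem_comm_right H K hx m, fun h => ?_⟩
    have := conj_mem_comm_right H K (inv_mem hx) _ h
    simpa [mul_assoc] using this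

theorem eq_comm [Finite G] [Group.IsSolvable G] (H K : Subgroup G) [hH : H.Normal]
    (hcop : (Nat.card H).Coprime (Nat.card K)) (htop : H ⊔ K = ⊤) (hle : H ≤ commutator G) :
    H = ⁅H, K⁆ := by
  haveI hM : (⁅H, K⁆).Normal := comm_normal H K htop
  have hMH : ⁅H, K⁆ ≤ H := Subgroup.commutator_le_left H K
  refine le_antisymm ?_ hMH
  set π := QuotientGroup.mk' ⁅H, K⁆ with hπ
  have hπs : Function.Surjective π := QuotientGroup.mk'_surjective _
  set W := H.map π with hW
  set B := K.map π with hB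
  haveI hWn : W.Normal := hH.map π hπs
  have hWB : ⁅W, B⁆ = ⊥ := by
    rw [hW, hB, ← Subgroup.map_commutator, Subgroup.map_eq_bot_iff, QuotientGroup.ker_mk']
  have hcomm : ∀ w ∈ W, ∀ b ∈ B, w * b = b * w := by
    intro w hw b hb
    have h1 : ⁅w, b⁆ ∈ ⁅W, B⁆ := commutator_mem_commutator hw hb
    rw [hWB, Subgroup.mem_bot, commutatorElement_eq_one_iff_mul_comm] at h1
    exact h1
  have htop' : W ⊔ B = ⊤ := by
    rw [hW, hB, ← Subgroup.map_sup, htop, Subgroup.map_top_of_surjective π hπs]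
  have hdec : ∀ q : G ⧸ ⁅H, K⁆, ∃ w ∈ W, ∃ b ∈ B, q = w * b := by
    intro q
    have h1 : q ∈ ((W ⊔ B : Subgroup _) : Set _) := by rw [htop']; trivial
    rw [Subgroup.normal_mul] at h1
    obtain ⟨w, hw, b, hb, h⟩ := Set.mem_mul.mp h1
    exact ⟨w, hw, b, hb, h.symm⟩
  have hder : commutator (G ⧸ ⁅H, K⁆) ≤ ⁅W, W⁆ ⊔ B := by
    rw [commutator_def, Subgroup.commutator_le]
    intro x _ y _
    obtain ⟨w, hw, b, hb, rfl⟩ := hdec x
    obtain ⟨w', hw', b', hb', rfl⟩ := hdec y
    have h1 : ⁅w * b, w' * b'⁆ = ⁅w, w'⁆ * ⁅b, b'⁆ := by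
      simp only [commutatorElement_def, mul_inv_rev]
      have e1 := hcomm w' hw' b hb
      have e2 := hcomm w⁻¹ (inv_mem hw) b' hb'
      have e3 := hcomm w'⁻¹ (inv_mem hw') b' hb'
      have e4 := hcomm w⁻¹ (inv_mem hw) b⁻¹ (inv_mem hb)
      have e5 := hcomm w'⁻¹ (inv_mem hw') b⁻¹ (inv_mem hb)
      have e6 := hcomm w'⁻¹ (inv_mem hw') b hb
      have e7 := hcomm w⁻¹ (inv_mem hw) b hb
      calc w * b * (w' * b') * (b⁻¹ * w⁻¹) * (b'⁻¹ * w'⁻¹)
          = w * (b * w') * b' * b⁻¹ * (w⁻¹ * b'⁻¹) * w'⁻¹ := by group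
        _ = w * (w' * b) * b' * b⁻¹ * (b'⁻¹ * w⁻¹) * w'⁻¹ := by
            rw [← e1, hcomm w⁻¹ (inv_mem hw) b'⁻¹ (inv_mem hb')]
        _ = w * w' * ((b * b' * b⁻¹ * b'⁻¹) * (w⁻¹ * w'⁻¹)) := by group
        _ = w * w' * ((w⁻¹ * w'⁻¹) * (b * b' * b⁻¹ * b'⁻¹)) := by
            rw [hcomm (w⁻¹ * w'⁻¹) (mul_mem (inv_mem hw) (inv_mem hw')) (b * b' * b⁻¹ * b'⁻¹)
              (mul_mem (mul_mem (mul_mem hb hb') (inv_mem hb)) (inv_mem hb'))]
        _ = w * w' * w⁻¹ * w'⁻¹ * (b * b' * b⁻¹ * b'⁻¹) := by group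
    rw [h1]
    exact mul_mem (Subgroup.mem_sup_left (commutator_mem_commutator hw hw'))
      (Subgroup.mem_sup_right (mul_mem (mul_mem (mul_mem hb hb') (inv_mem hb)) (inv_mem hb')))
  have hdisj : W ⊓ B = ⊥ := by
    apply Subgroup.inf_eq_bot_of_coprime
    exact Nat.Coprime.of_dvd (Subgroup.card_map_dvd H π) (Subgroup.card_map_dvd K π) hcop
  have hWle : W ≤ commutator (G ⧸ ⁅H, K⁆) := by
    have h1 : (commutator G).map π = commutator (G ⧸ ⁅H, K⁆) := by
      rw [commutator_def, Subgroup.map_commutator, Subgroup.map_top_of_surjective π hπs,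
        commutator_def]
    rw [← h1]
    exact Subgroup.map_mono hle
  have hperf : ⁅W, W⁆ = W := by
    refine le_antisymm (Subgroup.commutator_le_left W W) ?_
    intro w hw
    have h0 : w ∈ ((⁅W, W⁆ ⊔ B : Subgroup _) : Set _) := hder (hWle hw)
    rw [Subgroup.normal_mul] at h0
    obtain ⟨r, hr, b, hb, h⟩ := Set.mem_mul.mp h0
    have hrW : r ∈ W := Subgroup.commutator_le_left W W hr
    have hbW' : b ∈ W := by
      have : b = r⁻¹ * w := by rw [← h]; group
      rw [this]; exact W.mul_mem (W.inv_mem hrW) hw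
    have hbW : b ∈ W ⊓ B := ⟨hbW', hb⟩
    rw [hdisj, Subgroup.mem_bot] at hbW
    rw [← h, hbW, mul_one]
    exact hr
  have hWbot : W = ⊥ := by
    by_contra hne
    exact (Group.IsSolvable.commutator_lt_of_ne_bot hne).ne hperf
  rw [hW, Subgroup.map_eq_bot_iff, QuotientGroup.ker_mk'] at hWbot
  exact hWbot

theorem coprime_of_nilpotent_prime_index [Finite G]
    (hnil : Group.IsNilpotent ↥(commutator G)) (hq : (commutator G).index.Prime) :
    (Nat.card ↥(commutator G)).Coprime (commutator G).index := by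
  set D := commutator G with hD
  set q := D.index with hqdef
  haveI : Fact q.Prime := ⟨hq⟩
  haveI hDn : D.Normal := by rw [hD]; infer_instance
  obtain ⟨Q, N, hNn, hNc⟩ := Cfsg.Agent.Tr.hasNormalPComplement_of_isNilpotent (p := q) hnil
  have hidx : N.index = Nat.card Q := hNc.symm.index_eq_card
  have hidx' : (Q : Subgroup ↥D).index = Nat.card N := hNc.index_eq_card
  obtain ⟨k, hk⟩ := IsPGroup.iff_card.mp Q.2
  have hNcop : (Nat.card N).Coprime q := by
    rw [← hidx', Nat.coprime_comm, Nat.Prime.coprime_iff_not_dvd hq]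
    exact Q.not_dvd_index
  have hmem : ∀ x : ↥D, (orderOf x).Coprime q → x ∈ N := by
    intro x hx
    rw [← QuotientGroup.eq_one_iff, ← orderOf_eq_one_iff]
    have h1 : orderOf (x : ↥D ⧸ N) ∣ orderOf x :=
      orderOf_map_dvd (QuotientGroup.mk' N) x
    have h2 : orderOf (x : ↥D ⧸ N) ∣ q ^ k := by
      have := orderOf_dvd_natCard (x : ↥D ⧸ N)
      rwa [← Subgroup.index_eq_card, hidx, hk] at this
    exact Nat.eq_one_of_dvd_coprimes (Nat.Coprime.pow_right k hx) h1 h2
  set N' := N.map D.subtype with hN'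
  haveI hN'n : N'.Normal := by
    constructor
    rintro _ ⟨y, hy, rfl⟩ g
    have hz : g * (y : G) * g⁻¹ ∈ D := hDn.conj_mem _ y.2 g
    refine ⟨⟨g * (y : G) * g⁻¹, hz⟩, hmem _ ?_, rfl⟩
    have h1 : orderOf (⟨g * (y : G) * g⁻¹, hz⟩ : ↥D) = orderOf y := by
      rw [← Subgroup.orderOf_coe, ← Subgroup.orderOf_coe]
      exact orderOf_injective (MulAut.conj g).toMonoidHom (MulAut.conj g).injective (y : G)
    rw [h1]
    have h2 : orderOf y ∣ Nat.card N := by
      have := orderOf_dvd_natCard (⟨y, hy⟩ : N)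
      rwa [← Subgroup.orderOf_coe] at this
    exact Nat.Coprime.coprime_dvd_left h2 hNcop
  have hN'D : N' ≤ D := by
    rintro _ ⟨y, -, rfl⟩
    exact y.2
  have hcardP : Nat.card (G ⧸ N') = q ^ k * q := by
    rw [← Subgroup.index_eq_card, hN', Subgroup.index_map_subtype, hidx, hk]
  have hP : IsPGroup q (G ⧸ N') := IsPGroup.of_card (n := k + 1) (by rw [hcardP, pow_succ])
  haveI : Group.IsNilpotent (G ⧸ N') := hP.isNilpotent
  set π := QuotientGroup.mk' N' with hπ
  have hπs : Function.Surjective π := QuotientGroup.mk'_surjective _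
  have hDbar : D.map π = commutator (G ⧸ N') := by
    rw [hD, commutator_def, Subgroup.map_commutator, Subgroup.map_top_of_surjective π hπs,
      commutator_def]
  have hDidx : (commutator (G ⧸ N')).index = q := by
    rw [← hDbar]
    exact Subgroup.index_map_eq D hπs (by rw [hπ, QuotientGroup.ker_mk']; exact hN'D)
  have hne : commutator (G ⧸ N') ≠ ⊤ := by
    intro h
    rw [h, Subgroup.index_top] at hDidx
    exact hq.one_lt.ne hDidx
  obtain ⟨x, hx⟩ : ∃ x, x ∉ commutator (G ⧸ N') := by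
    by_contra hcon
    push_neg at hcon
    exact hne (eq_top_iff.mpr fun y _ => hcon y)
  have hL : Subgroup.zpowers x ⊔ commutator (G ⧸ N') = ⊤ := by
    have h1 := Subgroup.relIndex_mul_index
      (le_sup_right : commutator (G ⧸ N') ≤ Subgroup.zpowers x ⊔ commutator (G ⧸ N'))
    rw [hDidx] at h1
    have h2 : (Subgroup.zpowers x ⊔ commutator (G ⧸ N')).index ∣ q := Dvd.intro_left _ h1
    rcases (Nat.dvd_prime hq).mp h2 with h3 | h3
    · exact Subgroup.index_eq_one.mp h3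
    · exfalso
      rw [h3] at h1
      have h4 : (commutator (G ⧸ N')).relIndex (Subgroup.zpowers x ⊔ commutator (G ⧸ N')) = 1 := by
        have := Nat.eq_of_mul_eq_mul_right hq.pos (h1.trans (one_mul q).symm)
        exact this
      rw [Subgroup.relIndex_eq_one] at h4
      exact hx (h4 (Subgroup.mem_sup_left (Subgroup.mem_zpowers x)))
  have hz : Subgroup.zpowers x = ⊤ := by
    apply frattini_nongenerating
    rw [eq_top_iff, ← hL]
    exact sup_le_sup_left Cfsg.Agent.H4.commutator_le_frattini_of_nilpotent _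
  have hcomm : commutator (G ⧸ N') = ⊥ := by
    rw [commutator_def, Subgroup.commutator_eq_bot_iff_le_centralizer]
    intro a _
    rw [Subgroup.mem_centralizer_iff]
    intro b _
    have ha : a ∈ Subgroup.zpowers x := by rw [hz]; trivial
    have hb : b ∈ Subgroup.zpowers x := by rw [hz]; trivial
    obtain ⟨i, rfl⟩ := Subgroup.mem_zpowers_iff.mp ha
    obtain ⟨j, rfl⟩ := Subgroup.mem_zpowers_iff.mp hb
    rw [← zpow_add, ← zpow_add, add_comm]
  rw [hcomm, Subgroup.index_bot, hcardP] at hDidx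
  have hk1 : q ^ k = 1 := Nat.eq_of_mul_eq_mul_right hq.pos (hDidx.trans (one_mul q).symm)
  rw [hk, hk1] at hidx
  have hNtop : N = ⊤ := Subgroup.index_eq_one.mp hidx
  rw [hNtop, Subgroup.card_top] at hNcop
  exact hNcop

end Cfsg.Agent.Lib.Helper2.HallDer
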