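import Mathlib
import Cfsg.Agent.Lib.Helper2.GlauOver
import Cfsg.Agent.H25.Codeg2

/-!
# Invariant characters over invariant characters: transport along surjections
-/

set_option autoImplicit false

namespace Cfsg.Agent.Lib.Helper2

open Cfsg Cfsg.Agent.CharLib
open scoped ComplexConjugate

universe u

section transport

variable {A B : Type u} [Group A] [Group B]

/-- the problem: an irreducible character of `G`, invariant in the whole group, whose restriction to
`N` is a multiple of `θ`. -/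
def Sol (G N : Subgroup A) (hNG : N ≤ G) (θ : N → ℂ) : Prop :=
  ∃ χ : IrrCharacter G, (∃ e : ℂ, ∀ n : N, (χ : G → ℂ) ⟨n, hNG n.2⟩ = e * θ n) ∧
    SInv G ⊤ (χ : G → ℂ)

/-- pull-back of an irreducible character along a surjection. -/
def pb (π : A →* B) (hπ : Function.Surjective π) (X : Subgroup B) (f : IrrCharacter X) :
    IrrCharacter (X.comap π) :=
  ⟨fun x => (f : X → ℂ) (π.subgroupComap X x),
    isIrrCharacter_comp_of_surjective f.2 _ (π.subgroupComap_surjective_of_surjective X hπ)⟩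

theorem pb_apply (π : A →* B) (hπ : Function.Surjective π) (X : Subgroup B) (f : IrrCharacter X)
    (x : X.comap π) : (pb π hπ X f : X.comap π → ℂ) x = (f : X → ℂ) (π.subgroupComap X x) := rfl

theorem sInv_comp (π : A →* B) (X : Subgroup B) {f : X → ℂ} (hf : SInv X ⊤ f) :
    SInv (X.comap π) ⊤ (fun x => f (π.subgroupComap X x)) := by
  intro a _ g g' hg
  refine hf (π a) (Subgroup.mem_top _) _ _ ?_
  show π (g' : A) = π a * π (g : A) * (π a)⁻¹
  rw [hg, map_mul, map_mul, map_inv]

theorem sInv_of_comp (π : A →* B) (hπ : Function.Surjective π) (X : Subgroup B) {f : X → ℂ}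
    (hf : SInv (X.comap π) ⊤ (fun x => f (π.subgroupComap X x))) : SInv X ⊤ f := by
  intro b _ g g' hg
  obtain ⟨a, rfl⟩ := hπ b
  obtain ⟨y, hy⟩ := hπ (g : B)
  have hy1 : y ∈ X.comap π := by rw [Subgroup.mem_comap, hy]; exact g.2
  have hy2 : a * y * a⁻¹ ∈ X.comap π := by
    rw [Subgroup.mem_comap, map_mul, map_mul, map_inv, hy, ← hg]; exact g'.2
  have h1 := hf a (Subgroup.mem_top _) ⟨y, hy1⟩ ⟨a * y * a⁻¹, hy2⟩ rfl
  have e1 : π.subgroupComap X ⟨y, hy1⟩ = g := Subtype.ext hy
  have e2 : π.subgroupComap X ⟨a * y * a⁻¹, hy2⟩ = g' := by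
    apply Subtype.ext
    show π (a * y * a⁻¹) = g'
    rw [map_mul, map_mul, map_inv, hy, ← hg]
  beta_reduce at h1
  rw [e1, e2] at h1
  exact h1

/-- descent of an irreducible character along a surjection. -/
theorem exists_descent [Finite A] (π : A →* B) (hπ : Function.Surjective π) (X : Subgroup B)
    (F : IrrCharacter (X.comap π))
    (hker : ∀ z : X.comap π, π (z : A) = 1 → (F : X.comap π → ℂ) z = (F : X.comap π → ℂ) 1) :
    ∃ f : IrrCharacter X, ∀ x, (F : X.comap π → ℂ) x = (f : X → ℂ) (π.subgroupComap X x) := by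
  have hs := π.subgroupComap_surjective_of_surjective X hπ
  have hle : (π.subgroupComap X).ker ≤ Cfsg.Agent.H25.kerSub F := by
    intro z hz
    rw [Cfsg.Agent.H25.mem_kerSub]
    exact hker z (congrArg Subtype.val (MonoidHom.mem_ker.mp hz))
  obtain ⟨χ', hχ'⟩ := Cfsg.Agent.H25.exists_quotient_irr F (π.subgroupComap X).ker hle
  let e := QuotientGroup.quotientKerEquivOfSurjective (π.subgroupComap X) hs
  refine ⟨⟨fun x => (χ' : _ → ℂ) (e.symm x),
    isIrrCharacter_comp_of_surjective χ'.2 e.symm.toMonoidHom e.symm.surjective⟩, fun x => ?_⟩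
  show _ = (χ' : _ → ℂ) (e.symm (π.subgroupComap X x))
  have h1 : e.symm (π.subgroupComap X x) = QuotientGroup.mk x := by
    rw [MulEquiv.symm_apply_eq]
    rfl
  rw [h1, hχ']

theorem sol_comap_iff [Finite A] (π : A →* B) (hπ : Function.Surjective π) (G N : Subgroup B)
    (hNG : N ≤ G) (θ : N → ℂ) :
    Sol G N hNG θ ↔ Sol (G.comap π) (N.comap π) (Subgroup.comap_mono hNG)
      (fun x => θ (π.subgroupComap N x)) := by
  constructor
  · rintro ⟨χ, ⟨e, he⟩, hinv⟩
    exact ⟨pb π hπ G χ, ⟨e, fun n => he (π.subgroupComap N n)⟩, sInv_comp π G hinv⟩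
  · rintro ⟨χ, ⟨e, he⟩, hinv⟩
    have hker : ∀ z : G.comap π, π (z : A) = 1 →
        (χ : G.comap π → ℂ) z = (χ : G.comap π → ℂ) 1 := by
      intro z hz
      have hz1 : (z : A) ∈ N.comap π := by rw [Subgroup.mem_comap, hz]; exact N.one_mem
      have h1 := he ⟨z, hz1⟩
      have h2 := he 1
      have e1 : π.subgroupComap N ⟨z, hz1⟩ = 1 := Subtype.ext hz
      beta_reduce at h1 h2
      rw [e1] at h1
      rw [map_one] at h2
      have e2 : (⟨((⟨(z : A), hz1⟩ : N.comap π) : A), Subgroup.comap_mono hNG hz1⟩ : G.comap π) = z := rfl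
      have e3 : (⟨((1 : N.comap π) : A), Subgroup.comap_mono hNG (1 : N.comap π).2⟩ : G.comap π) = 1 := rfl
      rw [e2] at h1
      rw [e3] at h2
      rw [h1, h2]
    obtain ⟨f, hf⟩ := exists_descent π hπ G χ hker
    refine ⟨f, ⟨e, fun n => ?_⟩, ?_⟩
    · obtain ⟨y, hy⟩ := hπ (n : B)
      have hy1 : y ∈ N.comap π := by rw [Subgroup.mem_comap, hy]; exact n.2
      have h1 := he ⟨y, hy1⟩
      rw [hf] at h1
      beta_reduce at h1
      have e1 : π.subgroupComap N ⟨y, hy1⟩ = n := Subtype.ext hy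
      have e2 : π.subgroupComap G ⟨((⟨y, hy1⟩ : N.comap π) : A), Subgroup.comap_mono hNG hy1⟩
          = ⟨n, hNG n.2⟩ := Subtype.ext hy
      rw [e1, e2] at h1
      exact h1
    · apply sInv_of_comp π hπ G
      have : (fun x => (f : G → ℂ) (π.subgroupComap G x)) = (χ : G.comap π → ℂ) :=
        funext fun x => (hf x).symm
      rw [this]
      exact hinv

end transport

end Cfsg.Agent.Lib.Helper2
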