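import Mathlib
import Cfsg.Agent.Lib.Helper2.InvLayer
import Cfsg.Agent.Lib.Helper10.LinTwist
import Cfsg.Agent.H6.ProjExt
import Cfsg.Agent.S0868

/-!
# Reduction to a linear character, by means of a finite cover
-/

set_option autoImplicit false

namespace Cfsg.Agent.Lib.Helper2

open Cfsg Cfsg.Agent.CharLib Module
open scoped ComplexConjugate

universe u

/-- an element on which an irreducible character has maximal absolute value acts as a scalar. -/
theorem exists_scalar_of_norm_eq {X : Type u} [Group X] [Finite X] (χ : IrrCharacter X) (z : X)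
    (hz : ‖(χ : X → ℂ) z‖ = ‖(χ : X → ℂ) 1‖) :
    ∃ ω : ℂ, ‖ω‖ = 1 ∧ ∀ g, (χ : X → ℂ) (z * g) = ω * (χ : X → ℂ) g := by
  obtain ⟨n, ρ, hirr, hχ⟩ := χ.2
  have hpos : 0 < finrank ℂ (Fin n → ℂ) := finrank_pos_of_irr ρ
  rw [← hχ, Representation.char_one] at hz
  have hz' : ‖ρ.character z‖ = (finrank ℂ (Fin n → ℂ) : ℝ) := by rw [hz]; simp
  obtain ⟨ω, hω⟩ := (norm_character_eq_iff ρ z).mp hz'
  have hmul : ∀ g, ρ.character (z * g) = ω * ρ.character g := by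
    intro g
    show LinearMap.trace ℂ _ (ρ (z * g)) = ω * LinearMap.trace ℂ _ (ρ g)
    rw [map_mul, hω]
    have : (ω • (LinearMap.id : (Fin n → ℂ) →ₗ[ℂ] (Fin n → ℂ))) * ρ g = ω • ρ g := by
      ext v; simp
    rw [this, map_smul, smul_eq_mul]
  refine ⟨ω, ?_, fun g => by rw [← hχ]; exact hmul g⟩
  have h1 := hmul 1
  rw [mul_one, Representation.char_one] at h1
  rw [h1, norm_mul] at hz'
  have h2 : ‖((finrank ℂ (Fin n → ℂ) : ℕ) : ℂ)‖ = (finrank ℂ (Fin n → ℂ) : ℝ) := by simp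
  rw [h2] at hz'
  have h3 : ((finrank ℂ (Fin n → ℂ) : ℕ) : ℝ) ≠ 0 := by exact_mod_cast hpos.ne'
  exact mul_right_cancel₀ h3 (by rw [hz', one_mul])

section prod

variable {A : Type u} [Group A] [Fintype A]

/-- the product of a character lying over a linear character of `N` with a character of the whole
group that restricts irreducibly to `N`. -/
theorem isIrrCharacter_mul_of_over_lin (G N : Subgroup A) [hN : N.Normal] [Fintype G] [Fintype N]
    (hNG : N ≤ G) (Θ : IrrCharacter A) (hΘ : IsIrrCharacter N (fun n : N => (Θ : A → ℂ) n))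
    (β : IrrCharacter G) (l : N →* ℂˣ) (e : ℂ)
    (hβ : ∀ n : N, (β : G → ℂ) ⟨n, hNG n.2⟩ = e * ((l n : ℂˣ) : ℂ)) :
    IsIrrCharacter G (fun g : G => (β : G → ℂ) g * (Θ : A → ℂ) g) := by
  classical
  have hch : IsCharacter G (fun g : G => (β : G → ℂ) g * (Θ : A → ℂ) g) :=
    isCharacter_mul (isCharacter_of_irr β.2) (isCharacter_comp (isCharacter_of_irr Θ.2) G.subtype)
  apply isIrrCharacter_of_norm_one hch
  have hN0 : (Nat.card N : ℂ) ≠ 0 := by exact_mod_cast Nat.card_pos.ne'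
  have hG0 : (Nat.card G : ℂ) ≠ 0 := by exact_mod_cast Nat.card_pos.ne'
  have hH : ∀ x : A, ∑ n : N, (Θ : A → ℂ) ((n : A) * x) * conj ((Θ : A → ℂ) ((n : A) * x))
      = (Nat.card N : ℂ) := by
    intro x
    have h1 := Cfsg.Agent.S0868.result N (Θ : A → ℂ) Θ.2 hΘ (Θ : A → ℂ) Θ.2 _ rfl
    have h2 : (Nat.card N : ℂ)⁻¹ * ∑ n : N, (Θ : A → ℂ) ((n : A) * x) * conj ((Θ : A → ℂ) ((n : A) * x))
        = 1 := congrFun (h1.2.2 rfl) x
    rw [inv_mul_eq_iff_eq_mul₀ hN0, mul_one] at h2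
    exact h2
  have hF : ∀ (n : N) (g : G), (β : G → ℂ) (⟨n, hNG n.2⟩ * g) * conj ((β : G → ℂ) (⟨n, hNG n.2⟩ * g))
      = (β : G → ℂ) g * conj ((β : G → ℂ) g) := by
    intro n g
    have h1 : ‖(β : G → ℂ) ⟨n, hNG n.2⟩‖ = ‖(β : G → ℂ) 1‖ := by
      have h2 := hβ 1
      rw [map_one, Units.val_one, mul_one] at h2
      have h3 : (⟨((1 : N) : A), hNG (1 : N).2⟩ : G) = 1 := rfl
      rw [h3] at h2
      rw [hβ n, h2, norm_mul, Cfsg.Agent.Lib.Helper10.lin_norm, mul_one]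
    obtain ⟨ω, hω, hmul⟩ := exists_scalar_of_norm_eq β _ h1
    rw [hmul g, map_mul]
    have h4 : ω * conj ω = 1 := by
      rw [Complex.mul_conj, Complex.normSq_eq_norm_sq, hω]; simp
    calc ω * (β : G → ℂ) g * (conj ω * conj ((β : G → ℂ) g))
        = (ω * conj ω) * ((β : G → ℂ) g * conj ((β : G → ℂ) g)) := by ring
      _ = _ := by rw [h4, one_mul]
  have hβn : ∑ g : G, (β : G → ℂ) g * conj ((β : G → ℂ) g) = (Nat.card G : ℂ) := by
    have h1 := classInner_irr_self β.2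
    rw [classInner, inv_mul_eq_iff_eq_mul₀ hG0, mul_one] at h1
    exact h1
  have key : (Nat.card N : ℂ) * ∑ g : G, ((β : G → ℂ) g * (Θ : A → ℂ) g)
      * conj ((β : G → ℂ) g * (Θ : A → ℂ) g) = (Nat.card N : ℂ) * (Nat.card G : ℂ) := by
    have e1 : ∀ n : N, ∑ g : G, ((β : G → ℂ) g * (Θ : A → ℂ) g)
        * conj ((β : G → ℂ) g * (Θ : A → ℂ) g)
        = ∑ g : G, ((β : G → ℂ) g * conj ((β : G → ℂ) g)) *
          ((Θ : A → ℂ) ((n : A) * g) * conj ((Θ : A → ℂ) ((n : A) * g))) := by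
      intro n
      rw [← Equiv.sum_comp (Equiv.mulLeft (⟨n, hNG n.2⟩ : G))]
      refine Finset.sum_congr rfl fun g _ => ?_
      rw [← hF n g, map_mul]
      simp only [Equiv.coe_mulLeft, Subgroup.coe_mul]
      ring
    calc (Nat.card N : ℂ) * ∑ g : G, ((β : G → ℂ) g * (Θ : A → ℂ) g)
          * conj ((β : G → ℂ) g * (Θ : A → ℂ) g)
        = ∑ _n : N, ∑ g : G, ((β : G → ℂ) g * (Θ : A → ℂ) g)
          * conj ((β : G → ℂ) g * (Θ : A → ℂ) g) := by
          rw [Finset.sum_const, Finset.card_univ, nsmul_eq_mul, Nat.card_eq_fintype_card]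
      _ = ∑ n : N, ∑ g : G, ((β : G → ℂ) g * conj ((β : G → ℂ) g)) *
          ((Θ : A → ℂ) ((n : A) * g) * conj ((Θ : A → ℂ) ((n : A) * g))) :=
          Finset.sum_congr rfl fun n _ => e1 n
      _ = ∑ g : G, ((β : G → ℂ) g * conj ((β : G → ℂ) g)) * (Nat.card N : ℂ) := by
          rw [Finset.sum_comm]
          refine Finset.sum_congr rfl fun g _ => ?_
          rw [← Finset.mul_sum, hH]
      _ = (Nat.card N : ℂ) * (Nat.card G : ℂ) := by
          rw [← Finset.sum_mul, hβn]; ring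
  rw [classInner, inv_mul_eq_iff_eq_mul₀ hG0, mul_one]
  exact mul_left_cancel₀ hN0 key

end prod

section cover

open Cfsg.Agent.H6.ProjLift

variable {Γ : Type u} [Group Γ] [Finite Γ]

/-- reduction to linear characters of the preimage of `N` in a finite cover. -/
theorem sol_of_cover (G N : Subgroup Γ) [hN : N.Normal] (hNG : N ≤ G) (θ : IrrCharacter N)
    (hθ : SInv N ⊤ (θ : N → ℂ))
    (H : ∀ (A : Type u) [Group A] [Finite A] (π : A →* Γ), Function.Surjective π →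
      ∀ l : N.comap π →* ℂˣ, SInv (N.comap π) ⊤ (fun x => ((l x : ℂˣ) : ℂ)) →
        Sol (G.comap π) (N.comap π) (Subgroup.comap_mono hNG) (fun x => ((l x : ℂˣ) : ℂ))) :
    Sol G N hNG (θ : N → ℂ) := by
  classical
  obtain ⟨n, σ, hσ, hθσ⟩ := θ.2
  haveI := hσ
  have hinv : ∀ (g : Γ) (m : N), σ.character (MulAut.conjNormal g m) = σ.character m := by
    intro g m
    rw [hθσ]
    exact hθ g (Subgroup.mem_top _) m _ rfl
  haveI : Finite (lift N σ 1) := finite_lift N σ 1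
  letI : Fintype (lift N σ 1) := Fintype.ofFinite _
  set π := proj N σ 1 with hπdef
  have hπ : Function.Surjective π := proj_surjective N σ hinv 1
  set lam := lamHom N σ 1 with hlam
  have hspec := lamHom_spec N σ 1
  have hl : SInv (N.comap π) ⊤ (fun x => (((lam⁻¹ : N.comap π →* ℂˣ) x : ℂˣ) : ℂ)) := by
    intro a _ x x' hx
    have h1 := lamHom_invariant N σ 1 a⁻¹ x
    have h2 : x' = ⟨(a⁻¹)⁻¹ * x * a⁻¹, by
        have := (comap_normal N σ 1).conj_mem (x : lift N σ 1) x.2 (a⁻¹)⁻¹; simpa using this⟩ := by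
      apply Subtype.ext
      show (x' : lift N σ 1) = (a⁻¹)⁻¹ * x * a⁻¹
      rw [hx, inv_inv]
    show (((lam x')⁻¹ : ℂˣ) : ℂ) = (((lam x)⁻¹ : ℂˣ) : ℂ)
    rw [h2, hlam, h1]
  obtain ⟨β, ⟨e, he⟩, hβinv⟩ := H (lift N σ 1) π hπ lam⁻¹ hl
  let R : Representation ℂ (lift N σ 1) (Fin n → ℂ) :=
    (Units.coeHom (End ℂ (Fin n → ℂ))).comp
      ((MonoidHom.snd Γ (End ℂ (Fin n → ℂ))ˣ).comp (lift N σ 1).subtype)
  have hR : ∀ a : lift N σ 1, R a = (a.1.2 : End ℂ (Fin n → ℂ)) := fun a => rfl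
  have hRirr : R.IsIrreducible := by
    rw [isIrreducible_iff] at hσ ⊢
    refine ⟨hσ.1, fun U hU => hσ.2 U fun m v hv => ?_⟩
    obtain ⟨a, ha⟩ := hπ (m : Γ)
    have ha1 : a ∈ N.comap π := by rw [Subgroup.mem_comap, ha]; exact m.2
    have h1 := hspec ⟨a, ha1⟩
    have h2 : (⟨(a : Γ × (End ℂ (Fin n → ℂ))ˣ).1, ha1⟩ : N) = m := Subtype.ext ha
    have h3 := hU a v hv
    rw [hR] at h3
    have h4 : ((a : Γ × (End ℂ (Fin n → ℂ))ˣ).2 : End ℂ (Fin n → ℂ))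
        = ((lam ⟨a, ha1⟩ : ℂˣ) : ℂ) • σ m := by
      rw [← h2]; exact h1
    rw [h4, LinearMap.smul_apply] at h3
    have h5 := U.smul_mem (((lam ⟨a, ha1⟩)⁻¹ : ℂˣ) : ℂ) h3
    rw [smul_smul, ← Units.val_mul, inv_mul_cancel, Units.val_one, one_smul] at h5
    exact h5
  let Θ : IrrCharacter (lift N σ 1) := ⟨R.character, isIrrCharacter_char R hRirr⟩
  have hΘN : ∀ x : N.comap π, (Θ : lift N σ 1 → ℂ) x
      = ((lam x : ℂˣ) : ℂ) * (θ : N → ℂ) (π.subgroupComap N x) := by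
    intro x
    show LinearMap.trace ℂ _ (R x) = _
    rw [hR, hspec x, map_smul, smul_eq_mul, ← hθσ]
    rfl
  letI : Fintype (N.comap π) := Fintype.ofFinite _
  letI : Fintype (G.comap π) := Fintype.ofFinite _
  have hΘirr : IsIrrCharacter (N.comap π) (fun x : N.comap π => (Θ : lift N σ 1 → ℂ) x) := by
    have h1 := (Cfsg.Agent.Lib.Helper10.ltw lam (pb π hπ N θ)).2
    have h2 : (fun x : N.comap π => (Θ : lift N σ 1 → ℂ) x)
        = (Cfsg.Agent.Lib.Helper10.ltw lam (pb π hπ N θ) : N.comap π → ℂ) := funext hΘN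
    rw [h2]
    exact h1
  have hirr := isIrrCharacter_mul_of_over_lin (G.comap π) (N.comap π) (Subgroup.comap_mono hNG) Θ
    hΘirr β lam⁻¹ e he
  rw [sol_comap_iff π hπ G N hNG]
  refine ⟨⟨_, hirr⟩, ⟨e, fun x => ?_⟩, ?_⟩
  · show (β : G.comap π → ℂ) ⟨x, _⟩ * (Θ : lift N σ 1 → ℂ) x = _
    rw [he x, hΘN x]
    have h1 : (((lam⁻¹ : N.comap π →* ℂˣ) x : ℂˣ) : ℂ) * ((lam x : ℂˣ) : ℂ) = 1 := by
      rw [MonoidHom.inv_apply, ← Units.val_mul, inv_mul_cancel, Units.val_one]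
    calc e * (((lam⁻¹ : N.comap π →* ℂˣ) x : ℂˣ) : ℂ) * (((lam x : ℂˣ) : ℂ) * (θ : N → ℂ) (π.subgroupComap N x))
        = e * ((((lam⁻¹ : N.comap π →* ℂˣ) x : ℂˣ) : ℂ) * ((lam x : ℂˣ) : ℂ)) * (θ : N → ℂ) (π.subgroupComap N x) := by ring
      _ = _ := by rw [h1, mul_one]
  · intro a ha g g' hg
    show (β : G.comap π → ℂ) g' * (Θ : lift N σ 1 → ℂ) g' = (β : G.comap π → ℂ) g * (Θ : lift N σ 1 → ℂ) g
    rw [hβinv a ha g g' hg, hg, isClassFunction_of_irr Θ.2]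

end cover

end Cfsg.Agent.Lib.Helper2
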