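import Mathlib
import Cfsg.Agent.Lib.Helper2.InvLayer2
import Cfsg.Agent.H6.TransferLin

/-!
# Linear characters: splitting off the part that extends
-/

set_option autoImplicit false

namespace Cfsg.Agent.Lib.Helper2

open Cfsg Cfsg.Agent.CharLib Module
open scoped ComplexConjugate

universe u

theorem exists_coprime_factor (a b : ℕ) (hab : a.Coprime b) (t : ℕ) (ht : 0 < t) :
    ∃ t₁ t₂ : ℕ, t = t₁ * t₂ ∧ t₁.Coprime t₂ ∧ t₁.Coprime b ∧ t₂.Coprime a := by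
  induction t using Nat.recOnPosPrimePosCoprime with
  | prime_pow p n hp hn =>
    by_cases hpb : p ∣ b
    · refine ⟨1, p ^ n, (one_mul _).symm, Nat.coprime_one_left _, Nat.coprime_one_left _, ?_⟩
      apply Nat.Coprime.pow_left
      rw [Nat.Prime.coprime_iff_not_dvd hp]
      intro hpa
      exact hp.one_lt.ne' (Nat.dvd_one.mp (hab ▸ Nat.dvd_gcd hpa hpb))
    · refine ⟨p ^ n, 1, (mul_one _).symm, Nat.coprime_one_right _, ?_, Nat.coprime_one_left _⟩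
      apply Nat.Coprime.pow_left
      rwa [Nat.Prime.coprime_iff_not_dvd hp]
  | zero => exact absurd ht (lt_irrefl 0)
  | one => exact ⟨1, 1, rfl, Nat.coprime_one_left _, Nat.coprime_one_left _, Nat.coprime_one_left _⟩
  | coprime u v hu hv huv ihu ihv =>
    obtain ⟨u₁, u₂, rfl, h1, h2, h3⟩ := ihu (by omega)
    obtain ⟨v₁, v₂, rfl, k1, k2, k3⟩ := ihv (by omega)
    refine ⟨u₁ * v₁, u₂ * v₂, by ring, ?_, Nat.Coprime.mul_left h2 k2, Nat.Coprime.mul_left h3 k3⟩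
    have e1 : u₁.Coprime v₂ := Nat.Coprime.coprime_mul_right (Nat.Coprime.coprime_mul_left_right huv)
    have e2 : v₁.Coprime u₂ :=
      (Nat.Coprime.coprime_mul_left (Nat.Coprime.coprime_mul_right_right huv)).symm
    exact Nat.Coprime.mul_left (Nat.Coprime.mul_right h1 e1) (Nat.Coprime.mul_right e2 k1)

section ext

variable {A : Type u} [Group A] [Finite A]

theorem transfer_pow_eq_one {X : Type u} [Group X] [Finite X] (H : Subgroup X) (ϕ : H →* ℂˣ) (t : ℕ)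
    (ht : ϕ ^ t = 1) : (MonoidHom.transfer ϕ) ^ t = 1 := by
  classical
  ext g
  letI : Fintype (Quotient (MulAction.orbitRel (Subgroup.zpowers g) (X ⧸ H))) := Fintype.ofFinite _
  rw [MonoidHom.pow_apply, MonoidHom.transfer_eq_prod_quotient_orbitRel_zpowers_quot,
    ← Finset.prod_pow]
  rw [Finset.prod_eq_one]
  · rfl
  · intro q _
    rw [← MonoidHom.pow_apply, ht]
    rfl

/-- an invariant linear character of order prime to the index extends. -/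
theorem exists_ext_lin (G N : Subgroup A) (hNG : N ≤ G) (hn : Nrm N G) (μ : N →* ℂˣ)
    (hinv : ∀ g ∈ G, ∀ x x' : N, (x' : A) = g * x * g⁻¹ → μ x' = μ x) (t : ℕ) (ht : μ ^ t = 1)
    (hcop : t.Coprime (N.relIndex G)) :
    ∃ ν : G →* ℂˣ, (∀ n : N, ν ⟨n, hNG n.2⟩ = μ n) ∧ ν ^ t = 1 := by
  classical
  let e : N.subgroupOf G ≃* N := Subgroup.subgroupOfEquivOfLe hNG
  let ϕ : N.subgroupOf G →* ℂˣ := μ.comp e.toMonoidHom
  have hϕt : ϕ ^ t = 1 := by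
    ext x
    rw [MonoidHom.pow_apply]
    show ((μ (e x) ^ t : ℂˣ) : ℂ) = _
    rw [← MonoidHom.pow_apply, ht]
    rfl
  have hT := transfer_pow_eq_one (N.subgroupOf G) ϕ t hϕt
  have hb := Nat.gcd_eq_gcd_ab t (N.relIndex G)
  rw [hcop] at hb
  refine ⟨(MonoidHom.transfer ϕ) ^ (Nat.gcdB t (N.relIndex G)), fun n => ?_, ?_⟩
  · have hmem : (⟨n, hNG n.2⟩ : G) ∈ N.subgroupOf G := Subgroup.mem_subgroupOf.mpr n.2
    have hconj : ∀ g : G, g⁻¹ * (⟨n, hNG n.2⟩ : G) * g ∈ N.subgroupOf G := by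
      intro g
      rw [Subgroup.mem_subgroupOf]
      have := hn (g : A)⁻¹ (G.inv_mem g.2) n n.2
      simpa using this
    have h1 := Cfsg.Agent.H6.transfer_eq_pow_of_invariant ϕ (⟨n, hNG n.2⟩ : G) hmem hconj (by
      intro g
      show μ (e ⟨g⁻¹ * (⟨n, hNG n.2⟩ : G) * g, hconj g⟩) = μ (e ⟨⟨n, hNG n.2⟩, hmem⟩)
      refine hinv (g : A)⁻¹ (G.inv_mem g.2) _ _ ?_
      show (g : A)⁻¹ * n * g = (g : A)⁻¹ * n * ((g : A)⁻¹)⁻¹
      rw [inv_inv])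
    have h2 : ϕ ⟨⟨n, hNG n.2⟩, hmem⟩ = μ n := by
      show μ (e ⟨⟨n, hNG n.2⟩, hmem⟩) = μ n
      congr 1
    rw [MonoidHom.zpow_apply, h1, h2]
    have h3 : (N.subgroupOf G).index = N.relIndex G := rfl
    rw [h3, ← zpow_natCast, ← zpow_mul]
    have h4 : (μ n) ^ (t : ℤ) = 1 := by
      rw [zpow_natCast, ← MonoidHom.pow_apply, ht]; rfl
    have h5 : ((N.relIndex G : ℕ) : ℤ) * Nat.gcdB t (N.relIndex G)
        = 1 - (t : ℤ) * Nat.gcdA t (N.relIndex G) := by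
      push_cast at hb
      linarith
    rw [h5, zpow_sub, zpow_one, zpow_mul, h4, one_zpow, inv_one, mul_one]
  · ext g
    congr 1
    have h1 : (MonoidHom.transfer ϕ g) ^ t = 1 := by
      rw [← MonoidHom.pow_apply, hT]; rfl
    rw [MonoidHom.pow_apply, MonoidHom.zpow_apply, ← zpow_natCast, ← zpow_mul, mul_comm, zpow_mul,
      zpow_natCast, h1, one_zpow]
    rfl

theorem ext_lin_unique (G N : Subgroup A) (hNG : N ≤ G) (hn : Nrm N G) (t : ℕ)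
    (hcop : t.Coprime (N.relIndex G)) (ν ν' : G →* ℂˣ)
    (h : ∀ n : N, ν ⟨n, hNG n.2⟩ = ν' ⟨n, hNG n.2⟩) (ht : ν ^ t = 1) (ht' : ν' ^ t = 1) :
    ν = ν' := by
  haveI : (N.subgroupOf G).Normal := by
    refine ⟨fun x hx g => ?_⟩
    rw [Subgroup.mem_subgroupOf] at hx ⊢
    exact hn g g.2 x hx
  ext g
  congr 1
  have h1 : g ^ (N.subgroupOf G).index ∈ N.subgroupOf G := Subgroup.pow_index_mem _ g
  have h2 : (ν g * (ν' g)⁻¹) ^ (N.relIndex G) = 1 := by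
    rw [mul_pow, inv_pow, ← map_pow, ← map_pow]
    have h3 := h ⟨(g ^ (N.subgroupOf G).index : G), Subgroup.mem_subgroupOf.mp h1⟩
    have h4 : (⟨((⟨(g ^ (N.subgroupOf G).index : G), Subgroup.mem_subgroupOf.mp h1⟩ : N) : A), hNG
        (Subgroup.mem_subgroupOf.mp h1)⟩ : G) = g ^ N.relIndex G := rfl
    rw [h4] at h3
    rw [h3, mul_inv_cancel]
  have h3 : (ν g * (ν' g)⁻¹) ^ t = 1 := by
    rw [mul_pow, inv_pow, ← MonoidHom.pow_apply, ← MonoidHom.pow_apply, ht, ht']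
    simp
  have h4 := pow_gcd_eq_one.2 ⟨h3, h2⟩
  rw [hcop, pow_one] at h4
  exact mul_inv_eq_one.mp h4

/-- reduction to linear characters of order prime to the index of `G`. -/
theorem sol_lin_reduce (G N : Subgroup A) [hG : G.Normal] [hN : N.Normal] (hNG : N ≤ G)
    (hcop : (G.index).Coprime (N.relIndex G)) (μ : N →* ℂˣ)
    (hμ : SInv N ⊤ (fun x => ((μ x : ℂˣ) : ℂ)))
    (H₂ : ∀ (μ₂ : N →* ℂˣ) (t₂ : ℕ), SInv N ⊤ (fun x => ((μ₂ x : ℂˣ) : ℂ)) → μ₂ ^ t₂ = 1 →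
      t₂.Coprime G.index → Sol G N hNG (fun x => ((μ₂ x : ℂˣ) : ℂ))) :
    Sol G N hNG (fun x => ((μ x : ℂˣ) : ℂ)) := by
  classical
  letI : Fintype G := Fintype.ofFinite _
  have hμt : μ ^ (Nat.card N) = 1 := by
    ext x
    rw [MonoidHom.pow_apply, ← map_pow, pow_card_eq_one', map_one]
    rfl
  obtain ⟨t₁, t₂, htt, h12, h1b, h2a⟩ :=
    exists_coprime_factor G.index (N.relIndex G) hcop (Nat.card N) Nat.card_pos
  obtain ⟨k₁, hk₁a, hk₁b⟩ := Nat.chineseRemainder h12 1 0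
  obtain ⟨k₂, hk₂a, hk₂b⟩ := Nat.chineseRemainder h12 0 1
  have hxt : ∀ x : N, (μ x) ^ (Nat.card N) = 1 := by
    intro x
    rw [← map_pow, pow_card_eq_one', map_one]
  have hμ₁t : (μ ^ k₁) ^ t₁ = 1 := by
    obtain ⟨c, hc⟩ := (Nat.modEq_zero_iff_dvd).mp hk₁b
    ext x
    congr 1
    rw [MonoidHom.pow_apply, MonoidHom.pow_apply, ← pow_mul, hc,
      show t₂ * c * t₁ = (t₁ * t₂) * c by ring, ← htt, pow_mul, hxt, one_pow]
    rfl
  have hμ₂t : (μ ^ k₂) ^ t₂ = 1 := by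
    obtain ⟨c, hc⟩ := (Nat.modEq_zero_iff_dvd).mp hk₂a
    ext x
    congr 1
    rw [MonoidHom.pow_apply, MonoidHom.pow_apply, ← pow_mul, hc,
      show t₁ * c * t₂ = (t₁ * t₂) * c by ring, ← htt, pow_mul, hxt, one_pow]
    rfl
  have hprod : ∀ x : N, (μ ^ k₁) x * (μ ^ k₂) x = μ x := by
    intro x
    have h1 : k₁ + k₂ ≡ 1 [MOD t₁ * t₂] :=
      (Nat.modEq_and_modEq_iff_modEq_mul h12).mp ⟨hk₁a.add hk₂a, hk₁b.add hk₂b⟩
    rw [← htt] at h1
    rw [MonoidHom.pow_apply, MonoidHom.pow_apply, ← pow_add]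
    conv_rhs => rw [← pow_one (μ x)]
    exact pow_eq_pow_iff_modEq.mpr (h1.of_dvd (orderOf_dvd_of_pow_eq_one (hxt x)))
  have hinvU : ∀ (a : A) (x x' : N), (x' : A) = a * x * a⁻¹ → μ x' = μ x := fun a x x' hx =>
    Units.ext (hμ a (Subgroup.mem_top _) x x' hx)
  have hnNG : Nrm N G := fun g _ n hn => hN.conj_mem n hn g
  have hnG : Nrm G (⊤ : Subgroup A) := fun a _ g hg => hG.conj_mem g hg a
  obtain ⟨ν, hν1, hν2⟩ := exists_ext_lin G N hNG hnNG (μ ^ k₁) (fun g _ x x' hx => by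
    rw [MonoidHom.pow_apply, MonoidHom.pow_apply, hinvU g x x' hx]) t₁ hμ₁t h1b
  have hνinv : ∀ (a : A) (g g' : G), (g' : A) = a * g * a⁻¹ → ν g' = ν g := by
    intro a g g' hg
    have h1 := ext_lin_unique G N hNG hnNG t₁ h1b
      (ν.comp (cjEquiv hnG ⟨a, Subgroup.mem_top a⟩).toMonoidHom) ν (fun n => by
        show ν (cjEquiv hnG ⟨a, Subgroup.mem_top a⟩ ⟨n, hNG n.2⟩) = ν ⟨n, hNG n.2⟩
        have h2 : cjEquiv hnG ⟨a, Subgroup.mem_top a⟩ ⟨n, hNG n.2⟩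
            = ⟨((⟨a * n * a⁻¹, hN.conj_mem n n.2 a⟩ : N) : A), hNG (hN.conj_mem n n.2 a)⟩ := rfl
        rw [h2, hν1, hν1, MonoidHom.pow_apply, MonoidHom.pow_apply, hinvU a n _ rfl]) (by
        ext g
        congr 1
        rw [MonoidHom.pow_apply]
        show ν (cjEquiv hnG ⟨a, Subgroup.mem_top a⟩ g) ^ t₁ = 1
        rw [← MonoidHom.pow_apply, hν2]
        rfl) hν2
    have h3 : g' = cjEquiv hnG ⟨a, Subgroup.mem_top a⟩ g := Subtype.ext hg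
    rw [h3]
    exact DFunLike.congr_fun h1 g
  obtain ⟨χ₂, ⟨e, he⟩, hχ₂⟩ := H₂ (μ ^ k₂) t₂ (fun a _ x x' hx => by
    show (((μ ^ k₂) x' : ℂˣ) : ℂ) = (((μ ^ k₂) x : ℂˣ) : ℂ)
    rw [MonoidHom.pow_apply, MonoidHom.pow_apply, hinvU a x x' hx]) hμ₂t h2a
  refine ⟨Cfsg.Agent.Lib.Helper10.ltw ν χ₂, ⟨e, fun n => ?_⟩, ?_⟩
  · rw [Cfsg.Agent.Lib.Helper10.ltw_apply, hν1, he n]
    have h1 : ((μ n : ℂˣ) : ℂ) = (((μ ^ k₁) n : ℂˣ) : ℂ) * (((μ ^ k₂) n : ℂˣ) : ℂ) := by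
      rw [← Units.val_mul, hprod]
    beta_reduce
    rw [h1]
    ring
  · intro a _ g g' hg
    rw [Cfsg.Agent.Lib.Helper10.ltw_apply, Cfsg.Agent.Lib.Helper10.ltw_apply, hνinv a g g' hg,
      hχ₂ a (Subgroup.mem_top _) g g' hg]

end ext

end Cfsg.Agent.Lib.Helper2
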