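import Mathlib
import Cfsg.Agent.Lib.Helper2.InvLayer3
import Cfsg.Agent.Lib.Helper10.InvOver2

/-!
# The coprime case, and passage to the quotient by the kernel of a linear character
-/

set_option autoImplicit false

namespace Cfsg.Agent.Lib.Helper2

open Cfsg Cfsg.Agent.CharLib Module
open scoped ComplexConjugate

universe u

theorem Sol.congr {A : Type u} [Group A] {G G₁ N N₁ : Subgroup A} (hG : G = G₁) (hN : N = N₁)
    (hNG : N ≤ G) (hNG₁ : N₁ ≤ G₁) (θ : N → ℂ) (θ₁ : N₁ → ℂ)
    (h : ∀ (x : A) (hx : x ∈ N) (hx₁ : x ∈ N₁), θ ⟨x, hx⟩ = θ₁ ⟨x, hx₁⟩)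
    (hs : Sol G₁ N₁ hNG₁ θ₁) : Sol G N hNG θ := by
  subst hG
  subst hN
  have : θ = θ₁ := funext fun x => h x x.2 x.2
  subst this
  exact hs

section solv

variable {A B : Type u} [Group A] [Group B]

theorem solv_comap (π : A →* B) (X : Subgroup B) [X.Normal] (h : Group.IsSolvable (B ⧸ X)) :
    Group.IsSolvable (A ⧸ X.comap π) := by
  haveI := h
  let f : A ⧸ X.comap π →* B ⧸ X := QuotientGroup.map (X.comap π) X π le_rfl
  refine Group.isSolvable_of_isSolvable_injective (f := f) ?_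
  rw [injective_iff_map_eq_one]
  intro q
  induction q using QuotientGroup.induction_on with
  | H a =>
    intro ha
    rw [QuotientGroup.map_mk, QuotientGroup.eq_one_iff] at ha
    exact (QuotientGroup.eq_one_iff a).mpr ha

theorem solv_map (π : A →* B) (hπ : Function.Surjective π) (Y : Subgroup A) [Y.Normal]
    [(Y.map π).Normal] (h : Group.IsSolvable (A ⧸ Y)) : Group.IsSolvable (B ⧸ Y.map π) := by
  haveI := h
  let f : A ⧸ Y →* B ⧸ Y.map π := QuotientGroup.map Y (Y.map π) π (Subgroup.le_comap_map π Y)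
  refine Group.isSolvable_of_surjective (f := f) ?_
  intro q
  induction q using QuotientGroup.induction_on with
  | H b =>
    obtain ⟨a, rfl⟩ := hπ b
    exact ⟨QuotientGroup.mk a, QuotientGroup.map_mk _ _ _ _ a⟩

theorem solv_sub_comap (π : A →* B) (G N : Subgroup B) [(N.subgroupOf G).Normal]
    [((N.comap π).subgroupOf (G.comap π)).Normal]
    (h : Group.IsSolvable (G ⧸ N.subgroupOf G)) :
    Group.IsSolvable (G.comap π ⧸ (N.comap π).subgroupOf (G.comap π)) := by
  haveI := h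
  let f : G.comap π ⧸ (N.comap π).subgroupOf (G.comap π) →* G ⧸ N.subgroupOf G :=
    QuotientGroup.map _ _ (π.subgroupComap G) (fun x hx => hx)
  refine Group.isSolvable_of_isSolvable_injective (f := f) ?_
  rw [injective_iff_map_eq_one]
  intro q
  induction q using QuotientGroup.induction_on with
  | H a =>
    intro ha
    have ha' : (QuotientGroup.mk (π.subgroupComap G a) : G ⧸ N.subgroupOf G) = 1 := ha
    rw [QuotientGroup.eq_one_iff] at ha'
    exact (QuotientGroup.eq_one_iff a).mpr ha'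

theorem solv_sub_map (π : A →* B) (G N : Subgroup A) [(N.subgroupOf G).Normal]
    [((N.map π).subgroupOf (G.map π)).Normal]
    (h : Group.IsSolvable (G ⧸ N.subgroupOf G)) :
    Group.IsSolvable (G.map π ⧸ (N.map π).subgroupOf (G.map π)) := by
  haveI := h
  let f : G ⧸ N.subgroupOf G →* G.map π ⧸ (N.map π).subgroupOf (G.map π) :=
    QuotientGroup.map _ _ (π.subgroupMap G) (fun x hx => by
      rw [Subgroup.mem_comap, Subgroup.mem_subgroupOf]
      exact Subgroup.mem_map_of_mem π (Subgroup.mem_subgroupOf.mp hx))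
  refine Group.isSolvable_of_surjective (f := f) ?_
  intro q
  induction q using QuotientGroup.induction_on with
  | H b =>
    obtain ⟨a, rfl⟩ := π.subgroupMap_surjective G b
    exact ⟨QuotientGroup.mk a, QuotientGroup.map_mk _ _ _ _ a⟩

end solv

section hall

variable {Q : Type u} [Group Q] [Finite Q]

/-- the case in which `G` is a normal Hall subgroup. -/
theorem sol_of_hall (G N : Subgroup Q) [hG : G.Normal] [hN : N.Normal] (hNG : N ≤ G)
    (hcop : (Nat.card G).Coprime G.index)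
    (hsolv : Group.IsSolvable (Q ⧸ G) ∨ Group.IsSolvable (G ⧸ N.subgroupOf G))
    (θ : IrrCharacter N) (hθ : SInv N ⊤ (θ : N → ℂ)) : Sol G N hNG (θ : N → ℂ) := by
  classical
  letI : Fintype Q := Fintype.ofFinite _
  letI : Fintype G := Fintype.ofFinite _
  letI : Fintype N := Fintype.ofFinite _
  obtain ⟨S, hS⟩ := Subgroup.exists_right_complement'_of_coprime hcop
  have hcardS : G.index = Nat.card S := hS.symm.index_eq_card
  have hnGS : Nrm G S := fun s _ g hg => hG.conj_mem g hg s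
  have hnNG : Nrm N G := fun s _ g hg => hN.conj_mem g hg s
  have hnNS : Nrm N S := fun s _ g hg => hN.conj_mem g hg s
  have hθS : SInv N S (θ : N → ℂ) := fun s _ => hθ s (Subgroup.mem_top _)
  have key : ∃ χ : IrrCharacter G, classInner (resTo hNG (χ : G → ℂ)) (θ : N → ℂ) ≠ 0 ∧
      SInv G S (χ : G → ℂ) := by
    rcases hsolv with hB | hA
    · have hSs : Group.IsSolvable S := by
        haveI := hB
        refine Group.isSolvable_of_isSolvable_injective
          (f := (QuotientGroup.mk' G).comp S.subtype) ?_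
        rw [injective_iff_map_eq_one]
        intro s hs
        have h1 : (s : Q) ∈ G := (QuotientGroup.eq_one_iff (s : Q)).mp hs
        have h2 : (s : Q) ∈ G ⊓ S := ⟨h1, s.2⟩
        rw [hS.disjoint.eq_bot] at h2
        exact Subtype.ext (Subgroup.mem_bot.mp h2)
      exact exists_sInv_over_aux _ G N S rfl hnGS hNG hnNG hnNS (hcardS ▸ hcop) hSs θ hθS
    · exact Cfsg.Agent.Lib.Helper10.exists_sInv_over_solv _ G N S rfl hnGS hNG hnNS
        (Nat.Coprime.coprime_dvd_left (Subgroup.relIndex_dvd_card N G) (hcardS ▸ hcop)) hA θ hθS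
  obtain ⟨χ, hov, hinv⟩ := key
  refine ⟨χ, ⟨classInner (fun n : N => (χ : G → ℂ) ⟨(n : Q), hNG n.2⟩) (θ : N → ℂ), fun n => ?_⟩, ?_⟩
  · have h1 := Cfsg.Agent.H6.restrict_eq_smul_of_invariant_le N G hN hNG χ.2 θ.2 hov
      (fun g _ n => hθ g (Subgroup.mem_top _) n _ rfl)
    exact congrFun h1 n
  · intro q _ g g' hg
    obtain ⟨⟨a, s⟩, has⟩ := hS.2 q
    have has' : (a : Q) * s = q := has
    have h1 : (s : Q) * g * (s : Q)⁻¹ ∈ G := hG.conj_mem g g.2 s
    have h2 := hinv s s.2 g ⟨_, h1⟩ rfl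
    rw [← h2, ← isClassFunction_of_irr χ.2 ⟨_, h1⟩ a]
    refine congrArg (χ : G → ℂ) (Subtype.ext ?_)
    rw [hg, ← has']
    show (a : Q) * s * g * ((a : Q) * s)⁻¹ = a * (s * g * (s : Q)⁻¹) * (a : Q)⁻¹
    group

end hall

section quot

variable {A : Type u} [Group A] [Finite A]

/-- a linear character of order prime to the index of `G`. -/
theorem sol_lin_coprime (G N : Subgroup A) [hG : G.Normal] [hN : N.Normal] (hNG : N ≤ G)
    (hcop : (G.index).Coprime (N.relIndex G))
    (hsolv : Group.IsSolvable (A ⧸ G) ∨ Group.IsSolvable (G ⧸ N.subgroupOf G))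
    (μ : N →* ℂˣ) (t : ℕ) (hμ : SInv N ⊤ (fun x => ((μ x : ℂˣ) : ℂ))) (hμt : μ ^ t = 1)
    (ht : t.Coprime G.index) : Sol G N hNG (fun x => ((μ x : ℂˣ) : ℂ)) := by
  classical
  have hinvU : ∀ (a : A) (x x' : N), (x' : A) = a * x * a⁻¹ → μ x' = μ x := fun a x x' hx =>
    Units.ext (hμ a (Subgroup.mem_top _) x x' hx)
  let K : Subgroup A := μ.ker.map N.subtype
  have hmemK : ∀ x : A, x ∈ K ↔ ∃ hx : x ∈ N, μ ⟨x, hx⟩ = 1 := by
    intro x
    constructor
    · rintro ⟨k, hk, rfl⟩
      exact ⟨k.2, MonoidHom.mem_ker.mp hk⟩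
    · rintro ⟨hx, h1⟩
      exact ⟨⟨x, hx⟩, MonoidHom.mem_ker.mpr h1, rfl⟩
  have hKN : K ≤ N := fun x hx => ((hmemK x).mp hx).1
  haveI hK : K.Normal := by
    refine ⟨fun x hx a => ?_⟩
    obtain ⟨hxN, h1⟩ := (hmemK x).mp hx
    refine (hmemK _).mpr ⟨hN.conj_mem x hxN a, ?_⟩
    rw [hinvU a ⟨x, hxN⟩ _ rfl, h1]
  let π : A →* A ⧸ K := QuotientGroup.mk' K
  have hπ : Function.Surjective π := QuotientGroup.mk'_surjective K
  have hker : π.ker = K := QuotientGroup.ker_mk' K
  haveI hG' : (G.map π).Normal := hG.map π hπ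
  haveI hN' : (N.map π).Normal := hN.map π hπ
  have hGc : G = (G.map π).comap π :=
    (Subgroup.comap_map_eq_self (hker.le.trans (hKN.trans hNG))).symm
  have hNc : N = (N.map π).comap π := (Subgroup.comap_map_eq_self (hker.le.trans hKN)).symm
  have hN'G' : N.map π ≤ G.map π := Subgroup.map_mono hNG
  let l' : (N.map π).comap π →* ℂˣ := μ.comp (Subgroup.inclusion hNc.ge)
  let F : IrrCharacter ((N.map π).comap π) := ⟨fun x => ((l' x : ℂˣ) : ℂ), isIrrCharacter_of_hom l'⟩
  have hkerF : ∀ z : (N.map π).comap π, π (z : A) = 1 →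
      (F : (N.map π).comap π → ℂ) z = (F : (N.map π).comap π → ℂ) 1 := by
    intro z hz
    have hzK : (z : A) ∈ K := hker.le (MonoidHom.mem_ker.mpr hz)
    obtain ⟨hzN, h1⟩ := (hmemK _).mp hzK
    show ((l' z : ℂˣ) : ℂ) = ((l' 1 : ℂˣ) : ℂ)
    rw [map_one]
    have h2 : l' z = μ ⟨z, hzN⟩ := rfl
    rw [h2, h1]
  obtain ⟨θ', hθ'⟩ := exists_descent π hπ (N.map π) F hkerF
  have hθ'inv : SInv (N.map π) ⊤ (θ' : N.map π → ℂ) := by
    apply sInv_of_comp π hπ
    have h1 : (fun x => (θ' : N.map π → ℂ) (π.subgroupComap (N.map π) x))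
        = (F : (N.map π).comap π → ℂ) := funext fun x => (hθ' x).symm
    rw [h1]
    intro a _ x x' hx
    show ((l' x' : ℂˣ) : ℂ) = ((l' x : ℂˣ) : ℂ)
    congr 1
    exact hinvU a (Subgroup.inclusion hNc.ge x) (Subgroup.inclusion hNc.ge x') hx
  have hidx : (G.map π).index = G.index :=
    Subgroup.index_map_eq G hπ (hker.le.trans (hKN.trans hNG))
  have hhall : (Nat.card (G.map π)).Coprime (G.map π).index := by
    rw [hidx]
    apply Nat.coprime_of_dvd
    intro p hp hp1 hp2
    haveI : Fact p.Prime := ⟨hp⟩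
    obtain ⟨x, hx⟩ := exists_prime_orderOf_dvd_card' p hp1
    obtain ⟨g, rfl⟩ := π.subgroupMap_surjective G x
    have h1 : g ^ (N.subgroupOf G).index ∈ N.subgroupOf G := Subgroup.pow_index_mem _ g
    have h2 : ((g : A) ^ N.relIndex G) ∈ N := Subgroup.mem_subgroupOf.mp h1
    have h3 : ((g : A) ^ N.relIndex G) ^ t ∈ K := by
      refine (hmemK _).mpr ⟨N.pow_mem h2 t, ?_⟩
      have h4 : (⟨((g : A) ^ N.relIndex G) ^ t, N.pow_mem h2 t⟩ : N)
          = (⟨(g : A) ^ N.relIndex G, h2⟩ : N) ^ t := rfl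
      rw [h4, map_pow, ← MonoidHom.pow_apply, hμt]
      rfl
    have h5 : (π.subgroupMap G g) ^ (N.relIndex G * t) = 1 := by
      apply Subtype.ext
      show (π (g : A)) ^ (N.relIndex G * t) = 1
      rw [← map_pow, pow_mul]
      exact (QuotientGroup.eq_one_iff _).mpr h3
    have h6 : p ∣ N.relIndex G * t := hx ▸ orderOf_dvd_of_pow_eq_one h5
    rcases (Nat.Prime.dvd_mul hp).mp h6 with h7 | h7
    · exact hp.one_lt.ne' (Nat.dvd_one.mp (hcop ▸ Nat.dvd_gcd hp2 h7))
    · exact hp.one_lt.ne' (Nat.dvd_one.mp (ht ▸ Nat.dvd_gcd h7 hp2))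
  have hsolv' : Group.IsSolvable ((A ⧸ K) ⧸ G.map π) ∨
      Group.IsSolvable (G.map π ⧸ (N.map π).subgroupOf (G.map π)) := by
    rcases hsolv with h | h
    · exact Or.inl (solv_map π hπ G h)
    · exact Or.inr (solv_sub_map π G N h)
  have h1 := sol_of_hall (G.map π) (N.map π) hN'G' hhall hsolv' θ' hθ'inv
  rw [sol_comap_iff π hπ] at h1
  refine Sol.congr hGc hNc hNG _ _ _ (fun x hx hx₁ => ?_) h1
  rw [← hθ']
  rfl

/-- every invariant irreducible character of `N` lies under an invariant irreducible character of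
`G`, when the index of `G` is prime to the index of `N` in `G`. -/
theorem sol_main (G N : Subgroup A) [hG : G.Normal] [hN : N.Normal] (hNG : N ≤ G)
    (hcop : (G.index).Coprime (N.relIndex G))
    (hsolv : Group.IsSolvable (A ⧸ G) ∨ Group.IsSolvable (G ⧸ N.subgroupOf G))
    (θ : IrrCharacter N) (hθ : SInv N ⊤ (θ : N → ℂ)) : Sol G N hNG (θ : N → ℂ) := by
  apply sol_of_cover G N hNG θ hθ
  intro B _ _ π hπ l hl
  have hidx : (G.comap π).index = G.index := Subgroup.index_comap_of_surjective G hπ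
  have hrel : (N.comap π).relIndex (G.comap π) = N.relIndex G := by
    rw [Subgroup.relIndex_comap, Subgroup.map_comap_eq_self_of_surjective hπ]
  have hcop' : ((G.comap π).index).Coprime ((N.comap π).relIndex (G.comap π)) := by
    rw [hidx, hrel]; exact hcop
  have hsolv' : Group.IsSolvable (B ⧸ G.comap π) ∨
      Group.IsSolvable (G.comap π ⧸ (N.comap π).subgroupOf (G.comap π)) := by
    rcases hsolv with h | h
    · exact Or.inl (solv_comap π G h)
    · exact Or.inr (solv_sub_comap π G N h)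
  apply sol_lin_reduce (G.comap π) (N.comap π) (Subgroup.comap_mono hNG) hcop' l hl
  intro μ₂ t₂ h1 h2 h3
  exact sol_lin_coprime (G.comap π) (N.comap π) (Subgroup.comap_mono hNG) hcop' hsolv' μ₂ t₂ h1 h2 h3

end quot

end Cfsg.Agent.Lib.Helper2
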