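import Mathlib
import Cfsg.Agent.H1.Alperin

/-!
# The order of a `p`-group is bounded in terms of a maximal normal abelian subgroup
-/

set_option autoImplicit false

namespace Cfsg.Agent.Lib.Helper2.MaxAb

open scoped commutatorElement

theorem card_le {G : Type*} [Group G] [Finite G] {p : ℕ} [Fact p.Prime] (hG : IsPGroup p G) (A : Subgroup G) [A.Normal] (hA : IsMulCommutative A) (hmax : ∀ B : Subgroup G, B.Normal → IsMulCommutative B → A ≤ B → B = A) (a : ℕ) (ha : Nat.card A = p ^ a) : Nat.card G ≤ p ^ (a * (a + 1) / 2) := by
  classical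
  haveI := hA
  haveI : Group.IsNilpotent G := hG.isNilpotent
  have hp : p.Prime := Fact.out
  have hCA : Subgroup.centralizer (A : Set G) = A :=
    Cfsg.H1.self_centralizing_of_max_abelian_normal A hmax
  -- the chain
  have key : ∀ i : ℕ, i ≤ a → ∃ M : Subgroup G, M.Normal ∧ M ≤ A ∧ Nat.card M = p ^ i ∧
      (Subgroup.centralizer (M : Set G)).index ≤ p ^ (∑ j ∈ Finset.range i, j) := by
    intro i
    induction i with
    | zero =>
      intro _
      refine ⟨⊥, inferInstance, bot_le, by simp, ?_⟩
      have : Subgroup.centralizer (((⊥ : Subgroup G) : Subgroup G) : Set G) = ⊤ := by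
        rw [eq_top_iff]
        intro g _
        rw [Subgroup.mem_centralizer_iff]
        intro h hh
        have : h = 1 := hh
        rw [this, one_mul, mul_one]
      rw [this]
      simp
    | succ i ih =>
      intro hi
      obtain ⟨M, hMn, hMA, hMc, hMi⟩ := ih (by omega)
      haveI := hMn
      have hlt : M < A := by
        refine lt_of_le_of_ne hMA ?_
        rintro rfl
        rw [ha] at hMc
        have := Nat.pow_right_injective hp.two_le hMc
        omega
      obtain ⟨E, hEn, hME, hEA, hrel, hcomm⟩ := Cfsg.H1.exists_normal_step' hG M A hlt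
      have hEc : Nat.card E = p ^ (i + 1) := by
        have h0 := Subgroup.relIndex_mul_relIndex ⊥ M E bot_le hME
        rw [Subgroup.relIndex_bot_left, Subgroup.relIndex_bot_left, hrel, hMc] at h0
        rw [← h0, pow_succ]
      obtain ⟨x, hxE, hxM⟩ : ∃ x ∈ E, x ∉ M := by
        by_contra hcon
        push_neg at hcon
        have : E = M := le_antisymm hcon hME
        rw [this, hMc] at hEc
        have := Nat.pow_right_injective hp.two_le hEc
        omega
      have hEgen : E = M ⊔ Subgroup.zpowers x := by
        symm
        have hle : M ⊔ Subgroup.zpowers x ≤ E := sup_le hME (by rwa [Subgroup.zpowers_le])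
        have h1 := Subgroup.relIndex_mul_relIndex M (M ⊔ Subgroup.zpowers x) E le_sup_left hle
        rw [hrel] at h1
        have h2 : M.relIndex (M ⊔ Subgroup.zpowers x) ∣ p := Dvd.intro _ h1
        rcases (Nat.dvd_prime hp).mp h2 with h3 | h3
        · exfalso
          rw [Subgroup.relIndex_eq_one] at h3
          exact hxM (h3 (Subgroup.mem_sup_right (Subgroup.mem_zpowers x)))
        · rw [h3] at h1
          have h4 : (M ⊔ Subgroup.zpowers x).relIndex E = 1 :=
            Nat.eq_of_mul_eq_mul_left hp.pos (h1.trans (mul_one p).symm)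
          rw [Subgroup.relIndex_eq_one] at h4
          exact le_antisymm hle h4
      refine ⟨E, hEn, hEA, hEc, ?_⟩
      set CM := Subgroup.centralizer (M : Set G) with hCM
      set CE := Subgroup.centralizer (E : Set G) with hCE
      have hle : CE ≤ CM := Subgroup.centralizer_le hME
      have hmemCE : ∀ g ∈ CM, g * x = x * g → g ∈ CE := by
        intro g hg hgx
        have h1 : E ≤ Subgroup.centralizer ({g} : Set G) := by
          rw [hEgen, sup_le_iff, Subgroup.zpowers_le]
          constructor
          · intro m hm
            rw [Subgroup.mem_centralizer_singleton_iff]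
            exact (Subgroup.mem_centralizer_iff.mp hg m hm)
          · rw [Subgroup.mem_centralizer_singleton_iff]
            exact hgx.symm
        rw [hCE, Subgroup.mem_centralizer_iff]
        intro e he
        have := Subgroup.mem_centralizer_singleton_iff.mp (h1 he)
        exact this
      have hrelle : CE.relIndex CM ≤ Nat.card M := by
        rw [Subgroup.relIndex, Subgroup.index_eq_card]
        let f : ↥CM ⧸ CE.subgroupOf CM → ↥M := fun q =>
          Quotient.liftOn' q (fun g => (⟨⁅(g : G), x⁆, hcomm x hxE g⟩ : ↥M)) (by
            intro g h hgh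
            rw [QuotientGroup.leftRel_apply, Subgroup.mem_subgroupOf] at hgh
            have h1 := Subgroup.mem_centralizer_iff.mp hgh x hxE
            apply Subtype.ext
            show ⁅(g : G), x⁆ = ⁅(h : G), x⁆
            have h2 : x * ((g : G)⁻¹ * (h : G)) = (g : G)⁻¹ * (h : G) * x := h1
            simp only [commutatorElement_def]
            have h3 : (h : G) * x * (h : G)⁻¹ = (g : G) * x * (g : G)⁻¹ := by
              have : (h : G) * x = (g : G) * x * ((g : G)⁻¹ * (h : G)) := by
                rw [mul_assoc, h2]; group
              rw [this]; group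
            rw [h3])
        refine Nat.card_le_card_of_injective f ?_
        intro q₁ q₂
        refine Quotient.inductionOn₂' q₁ q₂ fun g h hgh => ?_
        have h1 : ⁅(g : G), x⁆ = ⁅(h : G), x⁆ := congrArg Subtype.val hgh
        apply Quotient.sound'
        rw [QuotientGroup.leftRel_apply, Subgroup.mem_subgroupOf]
        apply hmemCE _ (CM.mul_mem (CM.inv_mem g.2) h.2)
        simp only [commutatorElement_def] at h1
        have h2 : (g : G) * x * (g : G)⁻¹ = (h : G) * x * (h : G)⁻¹ := mul_right_cancel h1
        calc (g : G)⁻¹ * (h : G) * x = (g : G)⁻¹ * ((h : G) * x * (h : G)⁻¹) * (h : G) := by group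
          _ = (g : G)⁻¹ * ((g : G) * x * (g : G)⁻¹) * (h : G) := by rw [h2]
          _ = x * ((g : G)⁻¹ * (h : G)) := by group
      rw [← Subgroup.relIndex_mul_index hle, Finset.sum_range_succ, pow_add, mul_comm]
      exact Nat.mul_le_mul hMi (hMc ▸ hrelle)
  obtain ⟨M, hMn, hMA, hMc, hMi⟩ := key a le_rfl
  have hMeq : M = A := by
    apply Subgroup.eq_of_le_of_card_ge hMA
    rw [hMc, ha]
  rw [hMeq, hCA] at hMi
  rw [← A.card_mul_index, ha]
  calc p ^ a * A.index ≤ p ^ a * p ^ (∑ j ∈ Finset.range a, j) := Nat.mul_le_mul_left _ hMi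
    _ = p ^ (∑ j ∈ Finset.range (a + 1), j) := by
        rw [Finset.sum_range_succ, ← pow_add, add_comm]
    _ = p ^ (a * (a + 1) / 2) := by
        rw [Finset.sum_range_id, Nat.add_sub_cancel, mul_comm]


end Cfsg.Agent.Lib.Helper2.MaxAb
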