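import Mathlib
import Cfsg.Agent.Lib.Helper2.Dihedral
import Cfsg.Agent.Lib.Helper2.IndexTwo

set_option autoImplicit false

namespace Cfsg.Agent.Lib.Helper2

variable {G : Type*} [Group G]

theorem exists_index_two_of_two_mul_odd [Finite G] (q : ℕ) (hq : Odd q)
    (hG : Nat.card G = q * 2) : ∃ H : Subgroup G, H.index = 2 := by
  have : Fact (Nat.Prime 2) := ⟨Nat.prime_two⟩
  have heven : Even (Nat.card G) := by rw [hG]; exact even_two.mul_left q
  obtain ⟨T⟩ : Nonempty (Sylow 2 G) := inferInstance
  obtain ⟨k, hk⟩ := T.2.exists_card_eq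
  have hd : Nat.card T ∣ Nat.card G := Subgroup.card_subgroup_dvd_card _
  have h2d : 2 ∣ Nat.card T := T.dvd_card_of_dvd_card heven.two_dvd
  have hcop : Nat.Coprime (2 ^ k) q := Nat.Coprime.pow_left k (Nat.coprime_two_left.mpr hq)
  rw [hk, hG] at hd
  have hd2 : 2 ^ k ∣ 2 := hcop.dvd_of_dvd_mul_left hd
  have hT2 : Nat.card T = 2 := by
    rw [hk] at h2d ⊢
    exact Nat.dvd_antisymm hd2 h2d
  have hcyc : IsCyclic (T : Subgroup G) := isCyclic_of_prime_card hT2
  exact exists_index_two_of_cyclic_sylow heven T hcyc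

theorem no_index_two_of_simple [Finite G] [IsSimpleGroup G] (hgt : 2 < Nat.card G)
    (K : Subgroup G) : K.index ≠ 2 := by
  intro hK
  rcases (Subgroup.normal_of_index_eq_two hK).eq_bot_or_eq_top with h | h
  · rw [h, Subgroup.index_bot] at hK; omega
  · rw [h, Subgroup.index_top] at hK; omega

theorem center_eq_bot_of_simple [Finite G] [IsSimpleGroup G] (heven : Even (Nat.card G))
    (hgt : 2 < Nat.card G) : Subgroup.center G = ⊥ := by
  have : Fact (Nat.Prime 2) := ⟨Nat.prime_two⟩
  rcases (inferInstance : (Subgroup.center G).Normal).eq_bot_or_eq_top with hc | hc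
  · exact hc
  · exfalso
    obtain ⟨t, ht⟩ := exists_prime_orderOf_dvd_card' (G := G) 2 heven.two_dvd
    have hn : (Subgroup.zpowers t).Normal := by
      refine ⟨fun n hn g => ?_⟩
      have hnc : n ∈ Subgroup.center G := by rw [hc]; trivial
      have : g * n * g⁻¹ = n := by
        rw [mul_inv_eq_iff_eq_mul]; exact (Subgroup.mem_center_iff.mp hnc g)
      rwa [this]
    have hcard : Nat.card (Subgroup.zpowers t) = 2 := by rw [Nat.card_zpowers, ht]
    rcases hn.eq_bot_or_eq_top with h | h
    · rw [h, Subgroup.card_bot] at hcard; omega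
    · rw [h, Subgroup.card_top] at hcard; omega

/-- A simple group of order `> 2` embeds in the alternating group on the cosets of a proper
subgroup. -/
theorem two_mul_card_dvd_factorial_index [Finite G] [IsSimpleGroup G] (hgt : 2 < Nat.card G)
    (H : Subgroup G) (hH : H ≠ ⊤) : 2 * Nat.card G ∣ Nat.factorial H.index := by
  classical
  have := Fintype.ofFinite (G ⧸ H)
  set φ := MulAction.toPermHom G (G ⧸ H) with hφ
  have hker : φ.ker = ⊥ := by
    rcases φ.normal_ker.eq_bot_or_eq_top with h | h
    · exact h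
    · exfalso
      apply hH
      rw [eq_top_iff, ← h, hφ, ← Subgroup.normalCore_eq_ker]
      exact Subgroup.normalCore_le H
  have hinj : Function.Injective φ := (MonoidHom.ker_eq_bot_iff _).mp hker
  set ψ : G →* ℤˣ := (Equiv.Perm.sign).comp φ with hψ
  have hψker : ψ.ker = ⊤ := by
    rcases ψ.normal_ker.eq_bot_or_eq_top with h | h
    · exfalso
      have hinj2 : Function.Injective ψ := (MonoidHom.ker_eq_bot_iff _).mp h
      have := Nat.card_le_card_of_injective _ hinj2
      rw [Nat.card_eq_fintype_card (α := ℤˣ), Fintype.card_units_int] at this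
      omega
    · exact h
  have hmem : ∀ g : G, φ g ∈ alternatingGroup (G ⧸ H) := by
    intro g
    rw [Equiv.Perm.mem_alternatingGroup]
    have : g ∈ ψ.ker := by rw [hψker]; trivial
    exact this
  have hinj3 : Function.Injective (φ.codRestrict (alternatingGroup (G ⧸ H)) hmem) := by
    intro a b hab
    exact hinj (congrArg Subtype.val hab)
  have hdvd := Subgroup.card_dvd_of_injective _ hinj3
  have hnt : Nontrivial (G ⧸ H) := by
    rw [← Finite.one_lt_card_iff_nontrivial]
    have h1 : H.index ≠ 1 := fun h => hH (Subgroup.index_eq_one.mp h)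
    have h0 : H.index ≠ 0 := H.index_ne_zero_of_finite
    have : Nat.card (G ⧸ H) = H.index := rfl
    omega
  have h2 := two_mul_card_alternatingGroup (α := G ⧸ H)
  rw [Fintype.card_perm, ← Nat.card_eq_fintype_card, ← Nat.card_eq_fintype_card] at h2
  have h3 : Nat.card (G ⧸ H) = H.index := rfl
  rw [h3] at h2
  rw [← h2]
  exact Nat.mul_dvd_mul_left 2 hdvd

theorem card_involutions_alternating_five :
    Nat.card {t : alternatingGroup (Fin 5) // orderOf t = 2} = 15 := by
  have h1 : Fintype.card {t : alternatingGroup (Fin 5) // t * t = 1 ∧ t ≠ 1} = 15 := by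
    decide +kernel
  rw [← h1, ← Nat.card_eq_fintype_card]
  exact Nat.card_congr (Equiv.subtypeEquivRight (fun t => orderOf_eq_two_iff))

end Cfsg.Agent.Lib.Helper2
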