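import Mathlib
import Cfsg.Agent.Lib.Helper2.SimpleSmallIndex
import Cfsg.Agent.S1003
import Cfsg.Agent.S1005

set_option autoImplicit false

namespace Cfsg.Agent.Helper2.O168A

variable {G : Type*} [Group G] [Finite G] [IsSimpleGroup G]

theorem card_normalizer_seven (h : Nat.card G = 168) (P : Sylow 7 G) :
    Nat.card (Subgroup.normalizer ((P : Subgroup G) : Set G)) = 21 := by
  haveI : Fact (Nat.Prime 7) := ⟨by norm_num⟩
  have h8 : Nat.card (Sylow 7 G) = 8 := (Cfsg.Agent.S1003.result h).2.2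
  have h1 : Nat.card (Sylow 7 G) = (Subgroup.normalizer ((P : Subgroup G) : Set G)).index :=
    Sylow.card_eq_index_normalizer P
  have h2 := Subgroup.card_mul_index (Subgroup.normalizer ((P : Subgroup G) : Set G))
  rw [← h1, h8, h] at h2
  omega

omit [IsSimpleGroup G] in
theorem card_sylow_seven (h : Nat.card G = 168) (P : Sylow 7 G) : Nat.card P = 7 := by
  haveI : Fact (Nat.Prime 7) := ⟨by norm_num⟩
  rw [Sylow.card_eq_multiplicity, h]
  have : (168 : ℕ).factorization 7 = 1 := by
    have : (168 : ℕ) = 7 ^ 1 * 24 := by norm_num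
    rw [this, Nat.factorization_mul (by norm_num) (by norm_num)]
    simp [Nat.Prime.factorization_self (show Nat.Prime 7 by norm_num),
      Nat.factorization_eq_zero_of_not_dvd (show ¬ 7 ∣ 24 by norm_num)]
  rw [this]; norm_num

omit [IsSimpleGroup G] in
theorem exists_sylow_le (h : Nat.card G = 168) (M : Subgroup G) (h7 : 7 ∣ Nat.card M) :
    ∃ P : Sylow 7 G, (P : Subgroup G) ≤ M := by
  haveI : Fact (Nat.Prime 7) := ⟨by norm_num⟩
  obtain ⟨x, hx⟩ := exists_prime_orderOf_dvd_card' 7 h7
  have hx' : orderOf (x : G) = 7 := by rw [Subgroup.orderOf_coe]; exact hx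
  have hp : IsPGroup 7 (Subgroup.zpowers (x : G)) := by
    apply IsPGroup.of_card (n := 1)
    rw [Nat.card_zpowers, hx']; norm_num
  obtain ⟨P, hP⟩ := hp.exists_le_sylow
  have hPc : Nat.card P = 7 := card_sylow_seven h P
  have heq : Subgroup.zpowers (x : G) = P :=
    Subgroup.eq_of_le_of_card_ge hP (by rw [hPc, Nat.card_zpowers, hx'])
  refine ⟨P, ?_⟩
  rw [← heq, Subgroup.zpowers_le]
  exact x.2

omit [IsSimpleGroup G] in
theorem le_normalizer_of_card_le (h : Nat.card G = 168) (M : Subgroup G) (P : Sylow 7 G)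
    (hPM : (P : Subgroup G) ≤ M) (hc : Nat.card M ≤ 24) :
    M ≤ Subgroup.normalizer ((P : Subgroup G) : Set G) := by
  haveI : Fact (Nat.Prime 7) := ⟨by norm_num⟩
  have hmod := card_sylow_modEq_one 7 M
  have hle : Nat.card (Sylow 7 M) ∣ (P.subtype hPM : Subgroup M).index :=
    Sylow.card_dvd_index (P.subtype hPM)
  have hci := Subgroup.card_mul_index (P.subtype hPM : Subgroup M)
  have h7 : Nat.card (P.subtype hPM : Subgroup M) = 7 := by
    exact (Nat.card_congr (Subgroup.subgroupOfEquivOfLe hPM).toEquiv).trans (card_sylow_seven h P)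
  rw [h7] at hci
  have hi3 : (P.subtype hPM : Subgroup M).index ≤ 3 := by omega
  have hi0 : 0 < (P.subtype hPM : Subgroup M).index := by
    rcases Nat.eq_zero_or_pos (P.subtype hPM : Subgroup M).index with h0 | h0
    · rw [h0] at hci
      have : 0 < Nat.card M := Nat.card_pos
      omega
    · exact h0
  have hn3 : Nat.card (Sylow 7 M) ≤ 3 := (Nat.le_of_dvd hi0 hle).trans hi3
  have hn1 : Nat.card (Sylow 7 M) = 1 := by
    unfold Nat.ModEq at hmod
    omega
  haveI : Subsingleton (Sylow 7 M) := (Nat.card_eq_one_iff_unique.mp hn1).1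
  have hnorm : (P.subtype hPM : Subgroup M).Normal := Sylow.normal_of_subsingleton _
  exact (Subgroup.normal_subgroupOf_iff_le_normalizer hPM).mp hnorm

theorem card_le_of_ne_top (h : Nat.card G = 168) (M : Subgroup G) (hM : M ≠ ⊤) :
    Nat.card M ≤ 24 := by
  have h1 := Cfsg.Agent.Lib.Helper2.two_mul_card_dvd_factorial_index (by omega) M hM
  have h2 := Subgroup.card_mul_index M
  rw [h] at h1 h2
  by_contra hlt
  push_neg at hlt
  have hi : M.index ≤ 6 := by
    by_contra hi
    push_neg at hi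
    have : 25 * 7 ≤ Nat.card M * M.index := Nat.mul_le_mul hlt hi
    omega
  have h3 : Nat.factorial M.index ∣ Nat.factorial 6 := Nat.factorial_dvd_factorial hi
  have h4 := h1.trans h3
  revert h4
  decide

theorem eq_normalizer (h : Nat.card G = 168) (M : Subgroup G) (h21 : Nat.card M = 21) :
    ∃ P : Sylow 7 G, M = Subgroup.normalizer ((P : Subgroup G) : Set G) := by
  obtain ⟨P, hP⟩ := exists_sylow_le h M (by rw [h21]; norm_num)
  refine ⟨P, Subgroup.eq_of_le_of_card_ge (le_normalizer_of_card_le h M P hP (by omega)) ?_⟩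
  rw [card_normalizer_seven h P, h21]

theorem partA1 (h : Nat.card G = 168) (M : Subgroup G) (hM : IsCoatom M) (h7 : 7 ∣ Nat.card M) :
    Nat.card M = 21 ∧ ¬ IsMulCommutative M := by
  obtain ⟨P, hP⟩ := exists_sylow_le h M h7
  have hle := le_normalizer_of_card_le h M P hP (card_le_of_ne_top h M hM.1)
  have hN := card_normalizer_seven h P
  have hNtop : Subgroup.normalizer ((P : Subgroup G) : Set G) ≠ ⊤ := by
    intro ht
    rw [ht, Subgroup.card_top, h] at hN
    omega
  have heq : M = Subgroup.normalizer ((P : Subgroup G) : Set G) := by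
    rcases hle.eq_or_lt with h1 | h1
    · exact h1
    · exact absurd (hM.2 _ h1) hNtop
  have h21 : Nat.card M = 21 := by rw [heq]; exact hN
  refine ⟨h21, ?_⟩
  intro hcomm
  haveI : Fact (Nat.Prime 7) := ⟨by norm_num⟩
  haveI : Fact (Nat.Prime 3) := ⟨by norm_num⟩
  obtain ⟨x, hx⟩ := exists_prime_orderOf_dvd_card' (G := M) 7 (by rw [h21]; norm_num)
  obtain ⟨y, hy⟩ := exists_prime_orderOf_dvd_card' (G := M) 3 (by rw [h21]; norm_num)
  have hxy : Commute x y := hcomm.is_comm.comm x y
  have ho : orderOf (x * y) = 21 := by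
    rw [hxy.orderOf_mul_eq_mul_orderOf_of_coprime (by rw [hx, hy]; norm_num), hx, hy]
  have ho' : orderOf ((x * y : M) : G) = 21 := by rw [Subgroup.orderOf_coe]; exact ho
  rcases (Cfsg.Agent.S1005.result h).1 ((x * y : M) : G) with h1 | h1 | h1 | h1 | h1 <;> omega

theorem partA2 (h : Nat.card G = 168) (M M' : Subgroup G) (h21 : Nat.card M = 21)
    (h21' : Nat.card M' = 21) : ∃ g : G, M' = M.map (MulAut.conj g).toMonoidHom := by
  haveI : Fact (Nat.Prime 7) := ⟨by norm_num⟩
  obtain ⟨P, hP⟩ := eq_normalizer h M h21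
  obtain ⟨Q, hQ⟩ := eq_normalizer h M' h21'
  obtain ⟨g, hg⟩ := MulAction.exists_smul_eq G P Q
  refine ⟨g, ?_⟩
  have hQP : (Q : Subgroup G) = (P : Subgroup G).map (MulAut.conj g).toMonoidHom := by
    rw [← hg]; rfl
  rw [hQ, hP, hQP]
  exact (Subgroup.map_equiv_normalizer_eq _ _).symm

end Cfsg.Agent.Helper2.O168A
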