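import Mathlib
import Cfsg.Agent.Lib.Helper2.O168maxA
import Cfsg.Agent.S1012

set_option autoImplicit false

namespace Cfsg.Agent.Helper2.O168C

variable {G : Type*} [Group G] [Finite G] [IsSimpleGroup G]

theorem no_coatom_twelve (h : Nat.card G = 168) (M : Subgroup G) (hM : IsCoatom M)
    (h12 : Nat.card M = 12) (hn : Nat.card (Sylow 3 M) = 4) : False := by
  haveI : Fact (Nat.Prime 3) := ⟨by norm_num⟩
  haveI : Fact (Nat.Prime 2) := ⟨by norm_num⟩
  obtain ⟨P⟩ : Nonempty (Sylow 3 M) := inferInstance
  have hNi : (Subgroup.normalizer ((P : Subgroup M) : Set M)).index = 4 := by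
    rw [← hn]; exact (Sylow.card_eq_index_normalizer P).symm
  have hNc : Nat.card (Subgroup.normalizer ((P : Subgroup M) : Set M)) = 3 := by
    have := Subgroup.card_mul_index (Subgroup.normalizer ((P : Subgroup M) : Set M))
    rw [hNi, h12] at this; omega
  have hP3 : Nat.card (P : Subgroup M) = 3 := by
    have h1 : 3 ∣ Nat.card (P : Subgroup M) := P.dvd_card_of_dvd_card (by rw [h12]; norm_num)
    have h2 : Nat.card (P : Subgroup M) ≤ 3 :=
      (Subgroup.card_le_of_le Subgroup.le_normalizer).trans hNc.le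
    have := Nat.le_of_dvd Nat.card_pos h1
    omega
  have hNP : (P : Subgroup M) = Subgroup.normalizer ((P : Subgroup M) : Set M) :=
    Subgroup.eq_of_le_of_card_ge Subgroup.le_normalizer (by rw [hNc, hP3])
  have hcyc : IsCyclic (P : Subgroup M) := isCyclic_of_prime_card hP3
  have hcen : Subgroup.normalizer ((P : Subgroup M) : Set M)
      ≤ Subgroup.centralizer ((P : Subgroup M) : Set M) := by
    rw [← hNP]
    intro x hx y hy
    have := (IsCyclic.commGroup (α := (P : Subgroup M))).mul_comm ⟨y, hy⟩ ⟨x, hx⟩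
    exact congrArg Subtype.val this
  have hcompl := MonoidHom.ker_transferSylow_isComplement' P hcen
  set K := (MonoidHom.transferSylow P hcen).ker with hK
  have hK4 : Nat.card K = 4 := by
    have := hcompl.card_mul
    rw [hP3, h12] at this; omega
  have hK'4 : Nat.card (K.map M.subtype) = 2 ^ 2 := by
    rw [Subgroup.card_map_of_injective M.subtype_injective, hK4]; norm_num
  have h8 := Sylow.prime_pow_dvd_card_normalizer (p := 2) (n := 2) (G := G)
    (by rw [h]; norm_num) hK'4
  have hle : M ≤ Subgroup.normalizer ((K.map M.subtype : Subgroup G) : Set G) := by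
    have h1 := Subgroup.le_normalizer_map (H := K) M.subtype
    have h2 : Subgroup.normalizer (K : Set M) = ⊤ := Subgroup.normalizer_eq_top K
    rw [h2, ← MonoidHom.range_eq_map, Subgroup.range_subtype] at h1
    exact h1
  have hne : Subgroup.normalizer ((K.map M.subtype : Subgroup G) : Set G) ≠ ⊤ := by
    intro ht
    have hnorm : (K.map M.subtype).Normal := Subgroup.normalizer_eq_top_iff.mp ht
    rcases hnorm.eq_bot_or_eq_top with hb | hb
    · rw [hb, Subgroup.card_bot] at hK'4; omega
    · rw [hb, Subgroup.card_top, h] at hK'4; omega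
  have heq : M = Subgroup.normalizer ((K.map M.subtype : Subgroup G) : Set G) := by
    rcases hle.eq_or_lt with h1 | h1
    · exact h1
    · exact absurd (hM.2 _ h1) hne
  rw [← heq, h12] at h8
  omega

theorem partC (h : Nat.card G = 168) (M : Subgroup G) (hM : IsCoatom M)
    (h7 : ¬ 7 ∣ Nat.card M) (h3 : 3 ∣ Nat.card M) (hn : Nat.card (Sylow 3 M) ≠ 1) :
    Nonempty (M ≃* Equiv.Perm (Fin 4)) := by
  haveI : Fact (Nat.Prime 3) := ⟨by norm_num⟩
  have hle := Cfsg.Agent.Helper2.O168A.card_le_of_ne_top h M hM.1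
  have hdvd : Nat.card M ∣ 168 := h ▸ Subgroup.card_subgroup_dvd_card M
  have hpos : 0 < Nat.card M := Nat.card_pos
  obtain ⟨P⟩ : Nonempty (Sylow 3 M) := inferInstance
  have hmod := card_sylow_modEq_one 3 M
  have hnd : Nat.card (Sylow 3 M) ∣ (P : Subgroup M).index := Sylow.card_dvd_index P
  have hci := Subgroup.card_mul_index (P : Subgroup M)
  have hP3 : 3 ∣ Nat.card (P : Subgroup M) := P.dvd_card_of_dvd_card h3
  have hcases : Nat.card M = 3 ∨ Nat.card M = 6 ∨ Nat.card M = 12 ∨ Nat.card M = 24 := by
    generalize Nat.card M = m at *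
    interval_cases m <;> omega
  have hidx : 3 * (P : Subgroup M).index ≤ Nat.card M := by
    calc 3 * (P : Subgroup M).index ≤ Nat.card (P : Subgroup M) * (P : Subgroup M).index :=
          Nat.mul_le_mul_right _ (Nat.le_of_dvd Nat.card_pos hP3)
      _ = Nat.card M := hci
  have hi0 : 0 < (P : Subgroup M).index :=
    Nat.pos_of_ne_zero (by intro h0; rw [h0] at hci; omega)
  have hnle : Nat.card (Sylow 3 M) ≤ (P : Subgroup M).index := Nat.le_of_dvd hi0 hnd
  unfold Nat.ModEq at hmod
  rcases hcases with hc | hc | hc | hc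
  · exfalso; omega
  · exfalso; omega
  · exact (no_coatom_twelve h M hM hc (by omega)).elim
  · refine Cfsg.Agent.S1012.result hc ?_
    intro g hg
    have hg' : orderOf (g : G) = 6 := by rw [Subgroup.orderOf_coe]; exact hg
    rcases (Cfsg.Agent.S1005.result h).1 (g : G) with h1 | h1 | h1 | h1 | h1 <;> omega

end Cfsg.Agent.Helper2.O168C
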